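import Mathlib
import Cfsg.Agent.S0238

set_option autoImplicit false

namespace Cfsg.Agent.Lib.Helper4

open scoped Classical

variable {G : Type*} [Group G]

/-- The extended centralizer `C*(x)`: elements conjugating `x` to `x` or `x⁻¹`. -/
def extCentralizer (x : G) : Subgroup G where
  carrier := {g | g * x * g⁻¹ = x ∨ g * x * g⁻¹ = x⁻¹}
  one_mem' := Or.inl (by simp)
  mul_mem' := by
    intro a b ha hb
    have e1 : (a * b) * x * (a * b)⁻¹ = a * (b * x * b⁻¹) * a⁻¹ := by group
    have e2 : a * x⁻¹ * a⁻¹ = (a * x * a⁻¹)⁻¹ := by group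
    rcases ha with ha | ha <;> rcases hb with hb | hb
    · left; rw [e1, hb, ha]
    · right; rw [e1, hb, e2, ha]
    · right; rw [e1, hb, ha]
    · left; rw [e1, hb, e2, ha, inv_inv]
  inv_mem' := by
    intro a ha
    have e0 : a⁻¹ * (a * x * a⁻¹) * a⁻¹⁻¹ = x := by group
    rcases ha with ha | ha
    · left; rw [ha] at e0; exact e0
    · right
      rw [ha] at e0
      have e : a⁻¹ * x * a⁻¹⁻¹ = (a⁻¹ * x⁻¹ * a⁻¹⁻¹)⁻¹ := by group
      rw [e, e0]

lemma mem_extCentralizer {x g : G} :
    g ∈ extCentralizer x ↔ g * x * g⁻¹ = x ∨ g * x * g⁻¹ = x⁻¹ := Iff.rfl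

lemma card_conj_fiber [Fintype G] (t y : G) (h : IsConj t y) :
    (Finset.univ.filter (fun g : G => g * t * g⁻¹ = y)).card =
      Nat.card (Subgroup.centralizer ({t} : Set G)) := by
  obtain ⟨c, hc⟩ := isConj_iff.mp h
  rw [← Nat.card_eq_finsetCard]
  symm
  refine Nat.card_congr ?_
  refine
    { toFun := fun z => ⟨c * z.1, ?_⟩
      invFun := fun g => ⟨c⁻¹ * g.1, ?_⟩
      left_inv := fun z => by simp
      right_inv := fun g => by simp }
  · have hz : t * (z : G) = z * t := Subgroup.mem_centralizer_iff.mp z.2 t rfl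
    rw [Finset.mem_filter]
    refine ⟨Finset.mem_univ _, ?_⟩
    rw [← hc, mul_assoc c, ← hz]; group
  · have hg : (g : G) * t * (g : G)⁻¹ = y := (Finset.mem_filter.mp g.2).2
    rw [Subgroup.mem_centralizer_iff]
    intro k hk
    rw [Set.mem_singleton_iff] at hk
    rw [hk]
    have h1 : (g : G) * t = y * g := mul_inv_eq_iff_eq_mul.mp hg
    have h2 : c * t = y * c := mul_inv_eq_iff_eq_mul.mp hc
    have h3 : c⁻¹ * y = t * c⁻¹ := by
      rw [inv_mul_eq_iff_eq_mul, ← mul_assoc, h2, mul_inv_cancel_right]
    rw [mul_assoc, h1, ← mul_assoc, ← mul_assoc, h3]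

/-- Class size times centralizer order is the group order. -/
lemma card_class_mul_card_centralizer [Fintype G] (t : G) :
    Nat.card G = (Finset.univ.filter (fun t' : G => IsConj t t')).card *
      Nat.card (Subgroup.centralizer ({t} : Set G)) := by
  rw [Nat.card_eq_fintype_card, ← Finset.card_univ,
    Finset.card_eq_sum_card_fiberwise (f := fun g : G => g * t * g⁻¹)
      (t := Finset.univ.filter (fun t' : G => IsConj t t'))]
  · rw [Finset.sum_congr rfl (fun y hy => card_conj_fiber t y (Finset.mem_filter.mp hy).2),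
      Finset.sum_const, smul_eq_mul]
  · intro g _
    simp only [Finset.coe_filter, Finset.mem_univ, true_and, Set.mem_ofPred_eq]
    exact isConj_iff.mpr ⟨g, rfl⟩

/-- For a real element that is not an involution or trivial, `|C*(x)| = 2 |C(x)|`. -/
lemma card_extCentralizer [Finite G] (x : G) (hreal : IsConj x x⁻¹) (hne : x ≠ x⁻¹) :
    Nat.card (extCentralizer x) = 2 * Nat.card (Subgroup.centralizer ({x} : Set G)) := by
  have := Fintype.ofFinite G
  have h1 : Nat.card (extCentralizer x) =
      (Finset.univ.filter (fun g : G => g * x * g⁻¹ = x ∨ g * x * g⁻¹ = x⁻¹)).card := by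
    rw [← Nat.card_eq_finsetCard]
    exact Nat.card_congr (Equiv.subtypeEquivRight (by
      intro g; simp [mem_extCentralizer]))
  rw [h1, Finset.filter_or, Finset.card_union_of_disjoint, card_conj_fiber x x (IsConj.refl x),
    card_conj_fiber x x⁻¹ hreal, two_mul]
  rw [Finset.disjoint_filter]
  intro g _ h2 h3
  exact hne (h2.symm.trans h3)

/-- The involutions of a finite group. -/
noncomputable def invs (G : Type*) [Group G] [Fintype G] : Finset G :=
  Finset.univ.filter (fun t : G => orderOf t = 2)

lemma mem_invs [Fintype G] {t : G} : t ∈ invs G ↔ orderOf t = 2 := by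
  simp [invs]

lemma card_invs [Fintype G] : (invs G).card = Nat.card {t : G // orderOf t = 2} := by
  rw [← Nat.card_eq_finsetCard]
  exact Nat.card_congr (Equiv.subtypeEquivRight (by intro g; simp [invs]))

/-- The real elements which are neither trivial nor involutions. -/
noncomputable def reals (G : Type*) [Group G] [Fintype G] : Finset G :=
  Finset.univ.filter (fun x : G => x ≠ 1 ∧ orderOf x ≠ 2 ∧ IsConj x x⁻¹)

lemma mem_reals [Fintype G] {x : G} :
    x ∈ reals G ↔ x ≠ 1 ∧ orderOf x ≠ 2 ∧ IsConj x x⁻¹ := by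
  simp [reals]

/-- Number of ways to write `x` as a product of two involutions. -/
noncomputable def beta [Fintype G] (x : G) : ℕ :=
  ((invs G ×ˢ invs G).filter (fun p : G × G => p.1 * p.2 = x)).card

lemma beta_eq [Fintype G] (x : G) :
    beta x = Nat.card {p : G × G // orderOf p.1 = 2 ∧ orderOf p.2 = 2 ∧ p.1 * p.2 = x} := by
  unfold beta
  rw [← Nat.card_eq_finsetCard]
  exact Nat.card_congr (Equiv.subtypeEquivRight (by
    intro p; simp [invs, and_assoc]))

lemma sum_beta [Fintype G] : ∑ x : G, beta x = (invs G).card * (invs G).card := by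
  rw [← Finset.card_product]
  rw [Finset.card_eq_sum_card_fiberwise (f := fun p : G × G => p.1 * p.2)
    (s := invs G ×ˢ invs G) (t := Finset.univ)]
  · rfl
  · intro p _; simp

lemma beta_one_le [Fintype G] : beta (1 : G) ≤ (invs G).card := by
  unfold beta
  apply Finset.card_le_card_of_injOn (fun p : G × G => p.1)
  · intro p hp
    simp only [Finset.coe_filter, Finset.mem_product, Set.mem_ofPred_eq] at hp
    exact hp.1.1
  · intro p hp q hq hpq
    simp only [Finset.coe_filter, Finset.mem_product, Set.mem_ofPred_eq] at hp hq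
    have h1 : p.2 = p.1⁻¹ := eq_inv_of_mul_eq_one_right hp.2
    have h2 : q.2 = q.1⁻¹ := eq_inv_of_mul_eq_one_right hq.2
    have h3 : p.1 = q.1 := hpq
    exact Prod.ext h3 (by rw [h1, h2, h3])

/-- The Brauer–Fowler counting inequality. -/
theorem bf_core [Fintype G] :
    (invs G).card * (invs G).card ≤ (invs G).card +
      ∑ x ∈ invs G, (Nat.card (Subgroup.centralizer ({x} : Set G)) - 2) +
      ∑ x ∈ reals G, Nat.card (Subgroup.centralizer ({x} : Set G)) := by
  have : Finite G := Finite.of_fintype G
  rw [← sum_beta]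
  have hF : ∀ x : G, beta x ≤
      (if x = 1 then (invs G).card else 0) +
      (if x ∈ invs G then (Nat.card (Subgroup.centralizer ({x} : Set G)) - 2) else 0) +
      (if x ∈ reals G then Nat.card (Subgroup.centralizer ({x} : Set G)) else 0) := by
    intro x
    have hS := Cfsg.Agent.S0238.result x
    rw [← beta_eq] at hS
    by_cases h1 : x = 1
    · rw [if_pos h1, h1]
      exact le_trans beta_one_le (by omega)
    · by_cases h2 : orderOf x = 2
      · rw [if_pos (mem_invs.mpr h2)]
        have := hS.2.2 h2
        omega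
      · by_cases h3 : IsConj x x⁻¹
        · rw [if_pos (mem_reals.mpr ⟨h1, h2, h3⟩)]
          have := hS.1
          omega
        · have := hS.2.1 h3
          omega
  calc ∑ x : G, beta x ≤ ∑ x : G, ((if x = 1 then (invs G).card else 0) +
      (if x ∈ invs G then (Nat.card (Subgroup.centralizer ({x} : Set G)) - 2) else 0) +
      (if x ∈ reals G then Nat.card (Subgroup.centralizer ({x} : Set G)) else 0)) :=
        Finset.sum_le_sum (fun x _ => hF x)
    _ = _ := by
        rw [Finset.sum_add_distrib, Finset.sum_add_distrib, Finset.sum_ite_eq',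
          Finset.sum_ite_mem, Finset.sum_ite_mem]
        simp
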