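import Mathlib

/-!
# Metacyclic presentations `⟨x, y | x^n, y^m, x⁻¹ y x = y^r⟩` (helper4)

Counting the presented group, recognising a group generated by two elements of coprime orders
satisfying the relation, and the arithmetic behind the condition `r^(n / rad n) ≡ 1 (mod m)`.
-/

set_option autoImplicit false

namespace Cfsg.Agent.Lib.Helper4.FC

open Finset

/-- The relators of the metacyclic presentation. -/
def metaRels (n m r : ℕ) : Set (FreeGroup (Fin 2)) :=
  {FreeGroup.of (0 : Fin 2) ^ n, FreeGroup.of (1 : Fin 2) ^ m,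
    (FreeGroup.of (0 : Fin 2))⁻¹ * FreeGroup.of 1 * FreeGroup.of 0 *
      (FreeGroup.of (1 : Fin 2) ^ r)⁻¹}

theorem conj_pow_formula {G : Type*} [Group G] (x y : G) (r : ℕ) (h : x⁻¹ * y * x = y ^ r) :
    ∀ k j : ℕ, (x ^ k)⁻¹ * y ^ j * x ^ k = y ^ (j * r ^ k) := by
  have h1 : ∀ j : ℕ, x⁻¹ * y ^ j * x = y ^ (j * r) := by
    intro j
    have h2 : x⁻¹ * y ^ j * x = (x⁻¹ * y * x) ^ j := by
      induction j with
      | zero => simp
      | succ j ih => rw [pow_succ, pow_succ (x⁻¹ * y * x), ← ih]; group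
    rw [h2, h, ← pow_mul, mul_comm]
  intro k
  induction k with
  | zero => intro j; simp
  | succ k ih =>
    intro j
    have h3 : (x ^ (k + 1))⁻¹ * y ^ j * x ^ (k + 1) = x⁻¹ * ((x ^ k)⁻¹ * y ^ j * x ^ k) * x := by
      rw [pow_succ]; group
    rw [h3, ih, h1, pow_succ, mul_assoc]

theorem swap_formula {G : Type*} [Group G] (x y : G) (r : ℕ) (h : x⁻¹ * y * x = y ^ r)
    (k j : ℕ) : y ^ j * x ^ k = x ^ k * y ^ (j * r ^ k) := by
  rw [← conj_pow_formula x y r h k j]; group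

/-- The presented group has at most `n * m` elements. -/
theorem pres_card_le (n m r : ℕ) (hn : 0 < n) (hm : 0 < m) :
    Finite (PresentedGroup (metaRels n m r)) ∧
    Nat.card (PresentedGroup (metaRels n m r)) ≤ n * m := by
  obtain ⟨X, hX⟩ : ∃ X : PresentedGroup (metaRels n m r), X = PresentedGroup.of 0 := ⟨_, rfl⟩
  obtain ⟨Y, hY⟩ : ∃ Y : PresentedGroup (metaRels n m r), Y = PresentedGroup.of 1 := ⟨_, rfl⟩
  have hXn : X ^ n = 1 := by
    have h1 : PresentedGroup.mk (metaRels n m r) (FreeGroup.of (0 : Fin 2) ^ n) = 1 :=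
      PresentedGroup.one_of_mem (by simp [metaRels])
    rw [map_pow] at h1
    rw [hX]; exact h1
  have hYm : Y ^ m = 1 := by
    have h1 : PresentedGroup.mk (metaRels n m r) (FreeGroup.of (1 : Fin 2) ^ m) = 1 :=
      PresentedGroup.one_of_mem (by simp [metaRels])
    rw [map_pow] at h1
    rw [hY]; exact h1
  have hrel : X⁻¹ * Y * X = Y ^ r := by
    have h1 : PresentedGroup.mk (metaRels n m r) ((FreeGroup.of (0 : Fin 2))⁻¹ * FreeGroup.of 1 *
        FreeGroup.of 0 * (FreeGroup.of (1 : Fin 2) ^ r)⁻¹) = 1 :=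
      PresentedGroup.one_of_mem (by simp [metaRels])
    rw [map_mul, map_mul, map_mul, map_inv, map_inv, map_pow] at h1
    rw [hX, hY]
    exact mul_inv_eq_one.mp h1
  have hsw := swap_formula X Y r hrel
  have hXinv : X⁻¹ = X ^ (n - 1) := by
    apply inv_eq_of_mul_eq_one_right
    rw [← pow_succ', Nat.sub_add_cancel hn, hXn]
  have hYinv : Y⁻¹ = Y ^ (m - 1) := by
    apply inv_eq_of_mul_eq_one_right
    rw [← pow_succ', Nat.sub_add_cancel hm, hYm]
  have key : ∀ g : PresentedGroup (metaRels n m r),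
      (∀ i j : ℕ, ∃ i' j' : ℕ, g * (X ^ i * Y ^ j) = X ^ i' * Y ^ j') ∧
      (∀ i j : ℕ, ∃ i' j' : ℕ, g⁻¹ * (X ^ i * Y ^ j) = X ^ i' * Y ^ j') := by
    intro g
    have hg : g ∈ Subgroup.closure (Set.range (PresentedGroup.of (rels := metaRels n m r))) := by
      rw [PresentedGroup.closure_range_of]; exact Subgroup.mem_top g
    induction hg using Subgroup.closure_induction with
    | mem z hz =>
      obtain ⟨k, rfl⟩ := hz
      have hk : k = 0 ∨ k = 1 := by fin_cases k <;> simp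
      rcases hk with rfl | rfl
      · rw [← hX]
        refine ⟨fun i j => ⟨i + 1, j, ?_⟩, fun i j => ⟨n - 1 + i, j, ?_⟩⟩
        · rw [← mul_assoc, ← pow_succ']
        · rw [hXinv, ← mul_assoc, ← pow_add]
      · rw [← hY]
        refine ⟨fun i j => ⟨i, 1 * r ^ i + j, ?_⟩, fun i j => ⟨i, (m - 1) * r ^ i + j, ?_⟩⟩
        · rw [← mul_assoc, pow_add, ← mul_assoc, ← hsw, pow_one]
        · rw [hYinv, ← mul_assoc, pow_add, ← mul_assoc, ← hsw]
    | one =>
      exact ⟨fun i j => ⟨i, j, by simp⟩, fun i j => ⟨i, j, by simp⟩⟩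
    | mul a b _ _ iha ihb =>
      refine ⟨fun i j => ?_, fun i j => ?_⟩
      · obtain ⟨i1, j1, h1⟩ := ihb.1 i j
        obtain ⟨i2, j2, h2⟩ := iha.1 i1 j1
        exact ⟨i2, j2, by rw [mul_assoc, h1, h2]⟩
      · obtain ⟨i1, j1, h1⟩ := iha.2 i j
        obtain ⟨i2, j2, h2⟩ := ihb.2 i1 j1
        exact ⟨i2, j2, by rw [mul_inv_rev, mul_assoc, h1, h2]⟩
    | inv a _ iha =>
      refine ⟨iha.2, fun i j => ?_⟩
      rw [inv_inv]; exact iha.1 i j
  obtain ⟨F, hF⟩ : ∃ F : Fin n × Fin m → PresentedGroup (metaRels n m r),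
      F = fun ab => X ^ (ab.1 : ℕ) * Y ^ (ab.2 : ℕ) := ⟨_, rfl⟩
  have hFs : Function.Surjective F := by
    intro g
    obtain ⟨i, j, hij⟩ := (key g).1 0 0
    rw [pow_zero, pow_zero, mul_one, mul_one] at hij
    refine ⟨(⟨i % n, Nat.mod_lt _ hn⟩, ⟨j % m, Nat.mod_lt _ hm⟩), ?_⟩
    rw [hF, hij]
    show X ^ (i % n) * Y ^ (j % m) = X ^ i * Y ^ j
    rw [← pow_eq_pow_mod i hXn, ← pow_eq_pow_mod j hYm]
  have hfin : Finite (PresentedGroup (metaRels n m r)) := Finite.of_surjective F hFs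
  refine ⟨hfin, ?_⟩
  have h1 := Nat.card_le_card_of_surjective F hFs
  rwa [Nat.card_prod, Nat.card_fin, Nat.card_fin] at h1

/-- The canonical homomorphism from the presented group. -/
theorem exists_hom {H : Type*} [Group H] (x y : H) (n m r : ℕ)
    (hx : x ^ n = 1) (hy : y ^ m = 1) (hrel : x⁻¹ * y * x = y ^ r) :
    ∃ φ : PresentedGroup (metaRels n m r) →* H, φ (PresentedGroup.of 0) = x ∧
      φ (PresentedGroup.of 1) = y ∧ φ.range = Subgroup.closure {x, y} := by
  obtain ⟨f, hf⟩ : ∃ f : Fin 2 → H, f = ![x, y] := ⟨_, rfl⟩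
  have hf0 : f 0 = x := by rw [hf]; rfl
  have hf1 : f 1 = y := by rw [hf]; rfl
  have h : ∀ t ∈ metaRels n m r, FreeGroup.lift f t = 1 := by
    intro t ht
    simp only [metaRels, Set.mem_insert_iff, Set.mem_singleton_iff] at ht
    rcases ht with rfl | rfl | rfl
    · rw [map_pow, FreeGroup.lift_apply_of, hf0, hx]
    · rw [map_pow, FreeGroup.lift_apply_of, hf1, hy]
    · rw [map_mul, map_mul, map_mul, map_inv, map_inv, map_pow, FreeGroup.lift_apply_of,
        FreeGroup.lift_apply_of, hf0, hf1, hrel, mul_inv_cancel]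
  refine ⟨PresentedGroup.toGroup h, ?_, ?_, ?_⟩
  · rw [PresentedGroup.toGroup.of, hf0]
  · rw [PresentedGroup.toGroup.of, hf1]
  · rw [MonoidHom.range_eq_map, ← PresentedGroup.closure_range_of, MonoidHom.map_closure]
    congr 1
    ext z
    simp only [Set.mem_image, Set.mem_range, Set.mem_insert_iff, Set.mem_singleton_iff]
    constructor
    · rintro ⟨_, ⟨k, rfl⟩, rfl⟩
      rw [PresentedGroup.toGroup.of]
      have hk : k = 0 ∨ k = 1 := by fin_cases k <;> simp
      rcases hk with rfl | rfl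
      · left; exact hf0
      · right; exact hf1
    · rintro (rfl | rfl)
      · exact ⟨_, ⟨0, rfl⟩, by rw [PresentedGroup.toGroup.of, hf0]⟩
      · exact ⟨_, ⟨1, rfl⟩, by rw [PresentedGroup.toGroup.of, hf1]⟩

/-- The subgroup generated by `x`, `y` of coprime orders `n`, `m` with `x⁻¹ y x = y^r` has order
`n * m`. -/
theorem card_closure_pair {H : Type*} [Group H] [Finite H] (x y : H) (n m r : ℕ)
    (hx : orderOf x = n) (hy : orderOf y = m) (hrel : x⁻¹ * y * x = y ^ r)
    (hnm : Nat.Coprime n m) : Nat.card (Subgroup.closure {x, y}) = n * m := by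
  have hn : 0 < n := hx ▸ orderOf_pos x
  have hm : 0 < m := hy ▸ orderOf_pos y
  obtain ⟨φ, -, -, hφ⟩ := exists_hom x y n m r (hx ▸ pow_orderOf_eq_one x)
    (hy ▸ pow_orderOf_eq_one y) hrel
  obtain ⟨hfin, hcard⟩ := pres_card_le n m r hn hm
  have h1 : Nat.card (Subgroup.closure {x, y}) ≤ n * m := by
    rw [← hφ]
    exact (Nat.card_le_card_of_surjective _ φ.rangeRestrict_surjective).trans hcard
  have h2 : n * m ∣ Nat.card (Subgroup.closure {x, y}) := by
    apply Nat.Coprime.mul_dvd_of_dvd_of_dvd hnm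
    · rw [← hx]
      exact Subgroup.orderOf_dvd_natCard _ (Subgroup.subset_closure (by simp))
    · rw [← hy]
      exact Subgroup.orderOf_dvd_natCard _ (Subgroup.subset_closure (by simp))
  exact le_antisymm h1 (Nat.le_of_dvd Nat.card_pos h2)

/-- Recognition: a finite group generated by `x`, `y` of coprime orders `n`, `m` with
`x⁻¹ y x = y^r` is the presented group. -/
theorem pres_iso {H : Type*} [Group H] [Finite H] (x y : H) (n m r : ℕ)
    (hcl : Subgroup.closure {x, y} = ⊤) (hx : orderOf x = n) (hy : orderOf y = m)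
    (hrel : x⁻¹ * y * x = y ^ r) (hnm : Nat.Coprime n m) :
    Nonempty (H ≃* PresentedGroup (metaRels n m r)) := by
  have hn : 0 < n := hx ▸ orderOf_pos x
  have hm : 0 < m := hy ▸ orderOf_pos y
  obtain ⟨φ, -, -, hφ⟩ := exists_hom x y n m r (hx ▸ pow_orderOf_eq_one x)
    (hy ▸ pow_orderOf_eq_one y) hrel
  obtain ⟨hfin, hcard⟩ := pres_card_le n m r hn hm
  have hsurj : Function.Surjective φ := by
    rw [← MonoidHom.range_eq_top, hφ, hcl]
  have hc := card_closure_pair x y n m r hx hy hrel hnm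
  rw [hcl, Subgroup.card_top] at hc
  have hbij : Function.Bijective φ := by
    rw [Nat.bijective_iff_surjective_and_card]
    refine ⟨hsurj, le_antisymm ?_ (Nat.card_le_card_of_surjective φ hsurj)⟩
    rw [hc]; exact hcard
  exact ⟨(MulEquiv.ofBijective φ hbij).symm⟩

/-- If `s ≡ 1` modulo every prime divisor of `m`, `s^p ≡ 1 (mod m)` and `p` is prime to `m`,
then `s ≡ 1 (mod m)`. -/
theorem nt_lift (s p m : ℕ) (hpm : Nat.Coprime p m)
    (h1 : ∀ q : ℕ, q.Prime → q ∣ m → s % q = 1 % q) (h2 : s ^ p % m = 1 % m) :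
    s % m = 1 % m := by
  obtain ⟨U, hU⟩ : ∃ U : ℕ, U = ∑ i ∈ range p, s ^ i := ⟨_, rfl⟩
  have hcop : Nat.Coprime m U := by
    apply Nat.Coprime.symm
    apply Nat.coprime_of_dvd
    intro q hq hqU hqm
    haveI : Fact q.Prime := ⟨hq⟩
    have h3 : (s : ZMod q) = 1 := by
      have := (ZMod.natCast_eq_natCast_iff' s 1 q).mpr (h1 q hq hqm)
      simpa using this
    have h4 : ((U : ℕ) : ZMod q) = (p : ZMod q) := by
      rw [hU]; push_cast; rw [h3]; simp
    have h5 : ((U : ℕ) : ZMod q) = 0 := (ZMod.natCast_eq_zero_iff U q).mpr hqU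
    rw [h4, ZMod.natCast_eq_zero_iff] at h5
    have h6 : q ∣ Nat.gcd p m := Nat.dvd_gcd h5 hqm
    rw [hpm] at h6
    exact hq.one_lt.ne' (Nat.dvd_one.mp h6)
  have h7 : (m : ℤ) ∣ ((s : ℤ) - 1) * (U : ℤ) := by
    have h8 : ((s : ℤ) - 1) * (U : ℤ) = (s : ℤ) ^ p - 1 := by
      rw [hU]; push_cast; rw [mul_comm]; exact geom_sum_mul (s : ℤ) p
    rw [h8]
    have h9 : s ^ p ≡ 1 [MOD m] := h2
    have h10 := (Nat.modEq_iff_dvd.mp h9.symm)
    push_cast at h10
    exact h10
  have h11 : (m : ℤ) ∣ (s : ℤ) - 1 :=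
    IsCoprime.dvd_of_dvd_mul_right (Nat.isCoprime_iff_coprime.mpr hcop) h7
  have h12 : 1 ≡ s [MOD m] := Nat.modEq_iff_dvd.mpr (by push_cast; exact h11)
  exact h12.symm

/-- If `d` divides `n / p` for every prime divisor `p` of `n`, then `d` divides `n / rad n`. -/
theorem nt_rad (d n : ℕ) (hn : 0 < n) (hd : d ∣ n) (h : ∀ p ∈ n.primeFactors, d ∣ n / p) :
    d ∣ n / ∏ p ∈ n.primeFactors, p := by
  obtain ⟨R, hR⟩ : ∃ R : ℕ, R = ∏ p ∈ n.primeFactors, p := ⟨_, rfl⟩
  rw [← hR]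
  have hRn : R ∣ n := hR ▸ Nat.prod_primeFactors_dvd n
  have hRpos : 0 < R := Nat.pos_of_dvd_of_pos hRn hn
  have hk0 : n / R ≠ 0 := (Nat.div_pos (Nat.le_of_dvd hn hRn) hRpos).ne'
  have hd0 : d ≠ 0 := fun h0 => by rw [h0, zero_dvd_iff] at hd; omega
  rw [← Nat.factorization_le_iff_dvd hd0 hk0]
  intro q
  rw [Nat.factorization_div hRn, Finsupp.coe_tsub, Pi.sub_apply]
  by_cases hq : q ∈ n.primeFactors
  · have hqp : q.Prime := Nat.prime_of_mem_primeFactors hq
    have hqn : q ∣ n := Nat.dvd_of_mem_primeFactors hq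
    have h1 := h q hq
    have hnq0 : n / q ≠ 0 := (Nat.div_pos (Nat.le_of_dvd hn hqn) hqp.pos).ne'
    have h2 := (Nat.factorization_le_iff_dvd hd0 hnq0).mpr h1 q
    rw [Nat.factorization_div hqn, Finsupp.coe_tsub, Pi.sub_apply, hqp.factorization_self] at h2
    have h3 : R.factorization q ≤ 1 := by
      have hsq : Squarefree R := by
        rw [hR, ← Nat.radical_eq_prod_primeFactors]
        exact UniqueFactorizationMonoid.squarefree_radical
      exact hsq.natFactorization_le_one q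
    omega
  · have h1 := (Nat.factorization_le_iff_dvd hd0 hn.ne').mpr hd q
    have h2 : n.factorization q = 0 := by
      rw [← Finsupp.notMem_support_iff, Nat.support_factorization]; exact hq
    omega

/-- The extra arithmetic condition of Zassenhaus' presentation, from the `pq`-property. -/
theorem extra_cond {H : Type*} [Group H] [Finite H] (x y : H) (n m r : ℕ)
    (hx : orderOf x = n) (hy : orderOf y = m)
    (hrel : x⁻¹ * y * x = y ^ r) (hnm : Nat.Coprime n m) (hrn : r ^ n % m = 1 % m)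
    (hpq : ∀ A : Subgroup H, (∃ p q : ℕ, p.Prime ∧ q.Prime ∧ Nat.card A = p * q) → IsCyclic A) :
    r ^ (n / ∏ p ∈ n.primeFactors, p) % m = 1 % m := by
  have hn : 0 < n := hx ▸ orderOf_pos x
  have hm : 0 < m := hy ▸ orderOf_pos y
  have step1 : ∀ p ∈ n.primeFactors, ∀ q : ℕ, q.Prime → q ∣ m → r ^ (n / p) % q = 1 % q := by
    intro p hp q hq hqm
    have hpp : p.Prime := Nat.prime_of_mem_primeFactors hp
    have hpn : p ∣ n := Nat.dvd_of_mem_primeFactors hp
    obtain ⟨u, hu⟩ : ∃ u : H, u = x ^ (n / p) := ⟨_, rfl⟩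
    obtain ⟨w, hw⟩ : ∃ w : H, w = y ^ (m / q) := ⟨_, rfl⟩
    have hnp0 : n / p ≠ 0 := (Nat.div_pos (Nat.le_of_dvd hn hpn) hpp.pos).ne'
    have hmq0 : m / q ≠ 0 := (Nat.div_pos (Nat.le_of_dvd hm hqm) hq.pos).ne'
    have huo : orderOf u = p := by
      rw [hu, orderOf_pow_of_dvd hnp0 (hx.symm ▸ Nat.div_dvd_of_dvd hpn), hx]
      exact Nat.div_div_self hpn hn.ne'
    have hwo : orderOf w = q := by
      rw [hw, orderOf_pow_of_dvd hmq0 (hy.symm ▸ Nat.div_dvd_of_dvd hqm), hy]
      exact Nat.div_div_self hqm hm.ne'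
    have hrel' : u⁻¹ * w * u = w ^ (r ^ (n / p)) := by
      rw [hu, hw, conj_pow_formula x y r hrel, ← pow_mul]
    have hcop : Nat.Coprime p q := by
      apply Nat.Coprime.coprime_dvd_left hpn
      exact Nat.Coprime.coprime_dvd_right hqm hnm
    have hcard := card_closure_pair u w p q (r ^ (n / p)) huo hwo hrel' hcop
    have hcyc := hpq (Subgroup.closure {u, w}) ⟨p, q, hpp, hq, hcard⟩
    have hcomm : u * w = w * u := by
      have hu' : u ∈ Subgroup.closure ({u, w} : Set H) := Subgroup.subset_closure (by simp)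
      have hw' : w ∈ Subgroup.closure ({u, w} : Set H) := Subgroup.subset_closure (by simp)
      have h1 := (IsCyclic.commutative (α := Subgroup.closure ({u, w} : Set H))).is_comm.comm
        ⟨u, hu'⟩ ⟨w, hw'⟩
      exact congrArg Subtype.val h1
    have h2 : w ^ (r ^ (n / p)) = w ^ 1 := by
      rw [← hrel', pow_one, mul_assoc, ← hcomm]; group
    have h3 := pow_eq_pow_iff_modEq.mp h2
    rw [hwo] at h3
    exact h3
  have step2 : ∀ p ∈ n.primeFactors, r ^ (n / p) % m = 1 % m := by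
    intro p hp
    have hpn : p ∣ n := Nat.dvd_of_mem_primeFactors hp
    apply nt_lift (r ^ (n / p)) p m (Nat.Coprime.coprime_dvd_left hpn hnm) (step1 p hp)
    rw [← pow_mul, Nat.div_mul_cancel hpn]
    exact hrn
  have hcast : ∀ k : ℕ, r ^ k % m = 1 % m ↔ ((r : ZMod m)) ^ k = 1 := by
    intro k
    rw [← ZMod.natCast_eq_natCast_iff']
    push_cast
    rfl
  rw [hcast, ← orderOf_dvd_iff_pow_eq_one]
  apply nt_rad _ n hn
  · rw [orderOf_dvd_iff_pow_eq_one, ← hcast]; exact hrn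
  · intro p hp
    rw [orderOf_dvd_iff_pow_eq_one, ← hcast]; exact step2 p hp

end Cfsg.Agent.Lib.Helper4.FC
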