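import Mathlib
import Cfsg.Agent.Lib.Helper1.QuatSylow
import Cfsg.Agent.Lib.Helper55.Cores
import Cfsg.Agent.Lib.Helper20.AutThree

/-!
# Solvable groups with cyclic or generalized quaternion Sylow 2-subgroups (helper4)

If `Γ` is finite solvable with `O_{2'}(Γ) = 1` and a cyclic or generalized quaternion Sylow
`2`-subgroup, then there is a homomorphism `Γ → Sym(4)` with cyclic kernel.
-/

set_option autoImplicit false

namespace Cfsg.Agent.Lib.Helper4.FC

/-- An action on at most four points gives a homomorphism to `Perm (Fin 4)` with the same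
kernel. -/
theorem exists_hom_fin_four (Γ : Type*) [Group Γ] (Ω : Type*) [MulAction Γ Ω] [Finite Ω]
    (hΩ : Nat.card Ω ≤ 4) :
    ∃ f : Γ →* Equiv.Perm (Fin 4), f.ker = (MulAction.toPermHom Γ Ω).ker := by
  have hne : Nonempty (Ω ↪ Fin 4) := by
    haveI := Fintype.ofFinite Ω
    apply Function.Embedding.nonempty_of_card_le
    rw [Fintype.card_fin, ← Nat.card_eq_fintype_card]; exact hΩ
  obtain ⟨ι⟩ := hne
  refine ⟨(Equiv.Perm.viaEmbeddingHom ι).comp (MulAction.toPermHom Γ Ω), ?_⟩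
  ext g
  rw [MonoidHom.mem_ker, MonoidHom.mem_ker, MonoidHom.comp_apply]
  constructor
  · intro h
    exact Equiv.Perm.viaEmbeddingHom_injective ι (h.trans (map_one _).symm)
  · intro h; rw [h, map_one]

/-- A subgroup of index two is the kernel of a homomorphism to `Perm (Fin 4)`. -/
theorem exists_hom_of_index_two {Γ : Type*} [Group Γ] (N : Subgroup Γ) (hN : N.index = 2) :
    ∃ f : Γ →* Equiv.Perm (Fin 4), f.ker = N := by
  haveI : N.Normal := Subgroup.normal_of_index_eq_two hN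
  have hc : Nat.card (Γ ⧸ N) = 2 := by rw [← Subgroup.index_eq_card, hN]
  haveI : Finite (Γ ⧸ N) := Nat.finite_of_card_ne_zero (by rw [hc]; norm_num)
  obtain ⟨f, hf⟩ := exists_hom_fin_four Γ (Γ ⧸ N) (by rw [hc]; norm_num)
  refine ⟨f, ?_⟩
  rw [hf, ← Subgroup.normalCore_eq_ker, Subgroup.normalCore_eq_self]

set_option maxRecDepth 100000 in
theorem q8_six : ∀ x y q : QuaternionGroup 2, x ^ 2 ≠ 1 → y ^ 2 ≠ 1 → y ≠ x → y ≠ x⁻¹ →
    q = 1 ∨ q = QuaternionGroup.a 2 ∨ q = x ∨ q = x⁻¹ ∨ q = y ∨ q = y⁻¹ ∨ q = x * y ∨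
      q = (x * y)⁻¹ := by decide

/-- Fixed points of an automorphism of `Q₈` of order three. -/
theorem q8_fixed (ψ : MulAut (QuaternionGroup 2)) (x₀ : QuaternionGroup 2) (hx2 : x₀ ^ 2 ≠ 1)
    (h1 : ψ x₀ ≠ x₀) (h2 : ψ x₀ ≠ x₀⁻¹) (h3 : ψ (ψ x₀) = x₀ * ψ x₀)
    (q : QuaternionGroup 2) (hq : ψ q = q) : q = 1 ∨ q = QuaternionGroup.a 2 := by
  have hy2 : (ψ x₀) ^ 2 ≠ 1 := by
    rw [← map_pow]; exact fun h => hx2 (ψ.injective (h.trans (map_one ψ).symm))
  have hx1 : x₀ ≠ 1 := fun h => hx2 (by rw [h, one_pow])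
  have hy1 : ψ x₀ ≠ 1 := fun h => hy2 (by rw [h, one_pow])
  rcases q8_six x₀ (ψ x₀) q hx2 hy2 h1 h2 with h | h | h | h | h | h | h | h
  · left; exact h
  · right; exact h
  · exfalso; rw [h] at hq; exact h1 hq
  · exfalso
    rw [h, map_inv, inv_inj] at hq; exact h1 hq
  · exfalso
    rw [h, h3] at hq
    exact hx1 (mul_eq_right.mp hq)
  · exfalso
    rw [h, map_inv, inv_inj, h3] at hq
    exact hx1 (mul_eq_right.mp hq)
  · exfalso
    rw [h, map_mul, h3, ← mul_assoc] at hq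
    have h4 : ψ x₀ * x₀ = x₀ := mul_right_cancel hq
    exact hy1 (mul_eq_right.mp h4)
  · exfalso
    rw [h, map_inv, inv_inj, map_mul, h3, ← mul_assoc] at hq
    have h4 : ψ x₀ * x₀ = x₀ := mul_right_cancel hq
    exact hy1 (mul_eq_right.mp h4)

/-- The `Q₈` case: `Γ` has a normal self-centralizing quaternion subgroup `Q = O₂(Γ)` of order
`8` and is not a `2`-group; then `Γ` acts on its four Sylow `3`-subgroups with cyclic kernel. -/
theorem q8_case {Γ : Type*} [Group Γ] [Finite Γ] (Q : Subgroup Γ) [hQn : Q.Normal]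
    (hmax : ∀ N : Subgroup Γ, N.Normal → IsPGroup 2 N → N ≤ Q)
    (hCQ : Subgroup.centralizer (Q : Set Γ) ≤ Q) (eQ : Q ≃* QuaternionGroup 2)
    (g : Γ) (hgodd : (orderOf g).Coprime 2) (hg1 : g ≠ 1) :
    ∃ f : Γ →* Equiv.Perm (Fin 4), IsCyclic f.ker := by
  classical
  haveI : Fact (Nat.Prime 2) := ⟨Nat.prime_two⟩
  haveI : Fact (Nat.Prime 3) := ⟨Nat.prime_three⟩
  have hQ8 : Nat.card Q = 8 := by
    rw [Nat.card_congr eQ.toEquiv, Nat.card_eq_fintype_card, QuaternionGroup.card]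
  have hidx : Q.index ∣ 6 := by
    obtain ⟨Ω, hΩfin, φ, hΩ3, hker, -⟩ := Cfsg.Agent.Lib.Helper20.quat_normalizer_hom Q eQ
    have h1 : φ.ker.index ∣ 6 := by
      rw [Subgroup.index_ker]
      have h2 : Nat.card φ.range ∣ Nat.card (Equiv.Perm Ω) := Subgroup.card_subgroup_dvd_card _
      rw [Nat.card_perm] at h2
      have h3 : (Nat.card Ω).factorial ∣ 6 := by
        have h : Nat.card Ω ≤ 3 := hΩ3
        interval_cases (Nat.card Ω) <;> decide
      exact h2.trans h3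
    rw [hker] at h1
    have h4 : ((Q ⊔ Subgroup.centralizer (Q : Set Γ)).subgroupOf
        (Subgroup.normalizer (Q : Set Γ))).index = Q.index := by
      rw [sup_eq_left.mpr hCQ]
      show Q.relIndex (Subgroup.normalizer (Q : Set Γ)) = Q.index
      rw [Subgroup.normalizer_eq_top, Subgroup.relIndex_top_right]
    rwa [h4] at h1
  have hcard : Nat.card Γ ∣ 48 := by
    rw [← Subgroup.card_mul_index Q, hQ8]
    exact Nat.mul_dvd_mul_left 8 hidx
  have h3 : 3 ∣ Nat.card Γ := by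
    have h1 : orderOf g ∣ 2 ^ 4 * 3 := (orderOf_dvd_natCard g).trans hcard
    have h2 : orderOf g ∣ 3 := (Nat.Coprime.pow_right 4 hgodd).dvd_of_dvd_mul_left h1
    rcases (Nat.dvd_prime Nat.prime_three).mp h2 with h | h
    · exact absurd (orderOf_eq_one_iff.mp h) hg1
    · rw [← h]; exact orderOf_dvd_natCard g
  have hcardP : ∀ P : Sylow 3 Γ, Nat.card P = 3 := by
    intro P
    obtain ⟨k, hk⟩ := IsPGroup.iff_card.mp P.isPGroup'
    have h1 : 3 ∣ Nat.card P := P.dvd_card_of_dvd_card h3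
    have h2 : Nat.card P ∣ 48 := (Subgroup.card_subgroup_dvd_card _).trans hcard
    rw [hk] at h1 h2 ⊢
    rcases k with _ | _ | k
    · simp at h1
    · simp
    · exfalso
      have h9 : 9 ∣ 48 := (Dvd.intro (3 ^ k) (by ring)).trans h2
      omega
  have hPQ : ∀ P : Sylow 3 Γ, (P : Subgroup Γ) ⊓ Q = ⊥ := fun P =>
    (Subgroup.disjoint_of_coprime_natCard (by rw [hcardP P, hQ8]; decide)).eq_bot
  obtain ⟨z, hz⟩ : ∃ z : Γ, z = ((eQ.symm (QuaternionGroup.a 2) : Q) : Γ) := ⟨_, rfl⟩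
  have hzQ : z ∈ Q := hz ▸ (eQ.symm _).2
  have hzo : orderOf z = 2 := by
    rw [hz, Subgroup.orderOf_coe, MulEquiv.orderOf_eq]
    exact orderOf_eq_prime (by decide) (by decide)
  have hzc : ∀ γ : Γ, γ * z * γ⁻¹ = z := by
    intro γ
    have h1 : γ * z * γ⁻¹ ∈ Q := hQn.conj_mem z hzQ γ
    have h2 : orderOf (eQ ⟨γ * z * γ⁻¹, h1⟩) = 2 := by
      rw [MulEquiv.orderOf_eq, Subgroup.orderOf_mk]
      have := orderOf_injective (MulAut.conj γ).toMonoidHom (MulAut.conj γ).injective z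
      rw [← hzo, ← this]; rfl
    have h3 := Cfsg.Agent.Lib.Helper1.quaternionGroup_eq_of_orderOf_eq_two 2 _ h2
    have h3' : eQ ⟨γ * z * γ⁻¹, h1⟩ = QuaternionGroup.a 2 := by rw [h3, Nat.cast_ofNat]
    have h4 : (⟨γ * z * γ⁻¹, h1⟩ : Q) = eQ.symm (QuaternionGroup.a 2) := by
      rw [← h3', MulEquiv.symm_apply_apply]
    have h5 := congrArg Subtype.val h4
    rw [← hz] at h5
    exact h5
  have hn3 : Nat.card (Sylow 3 Γ) = 4 := by
    obtain ⟨P⟩ : Nonempty (Sylow 3 Γ) := inferInstance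
    have h1 : Nat.card (Sylow 3 Γ) ≡ 1 [MOD 3] := card_sylow_modEq_one 3 Γ
    have h2 : Nat.card (Sylow 3 Γ) = (Subgroup.normalizer ((P : Subgroup Γ) : Set Γ)).index :=
      P.card_eq_index_normalizer
    have h6 : 6 ∣ Nat.card (Subgroup.normalizer ((P : Subgroup Γ) : Set Γ)) := by
      have ha : 3 ∣ Nat.card (Subgroup.normalizer ((P : Subgroup Γ) : Set Γ)) := by
        have h5 := Subgroup.card_dvd_of_le (Subgroup.le_normalizer (H := (P : Subgroup Γ)))
        rwa [hcardP P] at h5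
      have hb : 2 ∣ Nat.card (Subgroup.normalizer ((P : Subgroup Γ) : Set Γ)) := by
        rw [← hzo]
        apply Subgroup.orderOf_dvd_natCard
        rw [Subgroup.mem_normalizer_iff]
        intro t
        have h7 : z * t * z⁻¹ = t := by
          have h8 := hzc t⁻¹
          rw [inv_inv] at h8
          have h9 : z * t = t * z := by
            calc z * t = t * (t⁻¹ * z * t) := by group
              _ = t * z := by rw [h8]
          rw [h9]; group
        rw [h7]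
      exact Nat.Coprime.mul_dvd_of_dvd_of_dvd (by decide) hb ha
    have h8 : Nat.card (Sylow 3 Γ) ∣ 8 := by
      rw [h2]
      have h9 := Subgroup.card_mul_index (Subgroup.normalizer ((P : Subgroup Γ) : Set Γ))
      obtain ⟨c, hc⟩ := h6
      have h10 : 6 * ((Subgroup.normalizer ((P : Subgroup Γ) : Set Γ)).index * c) ∣ 6 * 8 := by
        have h11 : 6 * ((Subgroup.normalizer ((P : Subgroup Γ) : Set Γ)).index * c) =
            Nat.card Γ := by rw [← h9, hc]; ring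
        rw [h11]; exact hcard
      exact (Dvd.intro c rfl).trans (Nat.dvd_of_mul_dvd_mul_left (by norm_num) h10)
    have hne1 : Nat.card (Sylow 3 Γ) ≠ 1 := by
      intro h
      haveI : Subsingleton (Sylow 3 Γ) := (Nat.card_eq_one_iff_unique.mp h).1
      have hPn : (P : Subgroup Γ).Normal := Sylow.normal_of_subsingleton P
      have hbot : (P : Subgroup Γ) = ⊥ := by
        rw [eq_bot_iff]
        intro x hx
        have hxC : x ∈ Subgroup.centralizer (Q : Set Γ) := by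
          rw [Subgroup.mem_centralizer_iff]
          intro q hq
          exact (Subgroup.commute_of_normal_of_disjoint _ _ hPn hQn
            (disjoint_iff.mpr (hPQ P)) x q hx hq).eq.symm
        have hx2 : x ∈ (P : Subgroup Γ) ⊓ Q := ⟨hx, hCQ hxC⟩
        rw [hPQ P] at hx2; exact hx2
      have h12 := hcardP P
      rw [hbot, Subgroup.card_bot] at h12
      omega
    have h1' : Nat.card (Sylow 3 Γ) % 3 = 1 := h1
    obtain ⟨c, hc⟩ := h8
    have hle : Nat.card (Sylow 3 Γ) ≤ 8 := Nat.le_of_dvd (by norm_num) ⟨c, hc⟩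
    generalize Nat.card (Sylow 3 Γ) = n3 at *
    interval_cases n3 <;> omega
  obtain ⟨f, hf⟩ := exists_hom_fin_four Γ (Sylow 3 Γ) (by rw [hn3])
  refine ⟨f, ?_⟩
  rw [hf]
  obtain ⟨N, hN⟩ : ∃ N : Subgroup Γ, N = (MulAction.toPermHom Γ (Sylow 3 Γ)).ker := ⟨_, rfl⟩
  rw [← hN]
  have hNn : N.Normal := hN ▸ MonoidHom.normal_ker _
  have hNnorm : ∀ x ∈ N, ∀ P : Sylow 3 Γ,
      x ∈ Subgroup.normalizer ((P : Subgroup Γ) : Set Γ) := by
    intro x hx P
    rw [hN, MonoidHom.mem_ker] at hx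
    have h1 : (MulAction.toPermHom Γ (Sylow 3 Γ) x) P = P := by rw [hx]; rfl
    exact Sylow.smul_eq_iff_mem_normalizer.mp h1
  have hN3 : ¬ 3 ∣ Nat.card N := by
    intro h
    obtain ⟨y, hy⟩ := exists_prime_orderOf_dvd_card' (G := N) 3 h
    have hyo : orderOf (y : Γ) = 3 := by rw [Subgroup.orderOf_coe]; exact hy
    have hall : ∀ P : Sylow 3 Γ, (P : Subgroup Γ) = Subgroup.zpowers (y : Γ) := by
      intro P
      have h1 : IsPGroup 3 (Subgroup.zpowers (y : Γ)) := by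
        apply IsPGroup.of_card (n := 1); rw [Nat.card_zpowers, hyo, pow_one]
      have h2 := h1.inf_normalizer_sylow P
      have h3 : (y : Γ) ∈ Subgroup.zpowers (y : Γ) ⊓
          Subgroup.normalizer ((P : Subgroup Γ) : Set Γ) :=
        ⟨Subgroup.mem_zpowers _, hNnorm y y.2 P⟩
      have h3' : (y : Γ) ∈ Subgroup.zpowers (y : Γ) ⊓ (P : Subgroup Γ) := by
        rw [← h2]; exact h3
      have h4 : Subgroup.zpowers (y : Γ) ≤ (P : Subgroup Γ) := by
        rw [Subgroup.zpowers_le]; exact h3'.2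
      exact (Subgroup.eq_of_le_of_card_ge h4 (by rw [hcardP P, Nat.card_zpowers, hyo])).symm
    have hsub : Subsingleton (Sylow 3 Γ) :=
      ⟨fun P P' => Sylow.ext ((hall P).trans (hall P').symm)⟩
    have h5 := Finite.card_le_one_iff_subsingleton.mpr hsub
    omega
  have hN2 : IsPGroup 2 N := by
    have h1 : Nat.card N ∣ 2 ^ 4 * 3 := (Subgroup.card_subgroup_dvd_card N).trans hcard
    have h2 : (Nat.card N).Coprime 3 :=
      Nat.Coprime.symm ((Nat.Prime.coprime_iff_not_dvd Nat.prime_three).mpr hN3)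
    have h4 : Nat.card N ∣ 2 ^ 4 := h2.dvd_of_dvd_mul_right h1
    obtain ⟨k, -, hk⟩ := (Nat.dvd_prime_pow Nat.prime_two).mp h4
    exact IsPGroup.of_card hk
  have hNQ : N ≤ Q := hmax N hNn hN2
  obtain ⟨P⟩ : Nonempty (Sylow 3 Γ) := inferInstance
  obtain ⟨t', ht'⟩ := exists_prime_orderOf_dvd_card' (G := (P : Subgroup Γ)) 3
    (by rw [hcardP P])
  obtain ⟨t, htdef⟩ : ∃ t : Γ, t = (t' : Γ) := ⟨_, rfl⟩
  have htP : t ∈ (P : Subgroup Γ) := htdef ▸ t'.2
  have hto : orderOf t = 3 := by rw [htdef, Subgroup.orderOf_coe]; exact ht'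
  have ht1 : t ≠ 1 := by intro h; rw [h, orderOf_one] at hto; omega
  have htQ : t ∉ Q := by
    intro h
    have h1 : t ∈ (P : Subgroup Γ) ⊓ Q := ⟨htP, h⟩
    rw [hPQ P] at h1; exact ht1 h1
  have htC : t ∉ Subgroup.centralizer (Q : Set Γ) := fun h => htQ (hCQ h)
  have htN : t ∈ Subgroup.normalizer (Q : Set Γ) := by
    rw [Subgroup.normalizer_eq_top]; exact Subgroup.mem_top t
  obtain ⟨ψ, hψ⟩ : ∃ ψ : MulAut Q, ψ = Q.normalizerMonoidHom ⟨t, htN⟩ := ⟨_, rfl⟩
  have hψval : ∀ q : Q, ((ψ q : Q) : Γ) = t * q * t⁻¹ := fun q => by rw [hψ]; rfl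
  obtain ⟨ψ', hψ'⟩ : ∃ ψ' : MulAut (QuaternionGroup 2), ψ' = MulAut.congr eQ ψ := ⟨_, rfl⟩
  have hψ'val : ∀ x, ψ' x = eQ (ψ (eQ.symm x)) := fun x => by rw [hψ']; rfl
  have hne : ψ' ≠ 1 := by
    intro h
    apply htC
    rw [Subgroup.mem_centralizer_iff]
    intro q hq
    have h1 : ψ' (eQ ⟨q, hq⟩) = eQ ⟨q, hq⟩ := by rw [h]; rfl
    rw [hψ'val, MulEquiv.symm_apply_apply] at h1
    have h2 := congrArg Subtype.val (eQ.injective h1)
    rw [hψval] at h2
    calc q * t = (t * q * t⁻¹) * t := by rw [h2]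
      _ = t * q := by group
  have hodd : (orderOf ψ').Coprime 2 := by
    have h2 : orderOf ψ ∣ orderOf (⟨t, htN⟩ : Subgroup.normalizer (Q : Set Γ)) := by
      rw [hψ]; exact orderOf_map_dvd _ _
    rw [Subgroup.orderOf_mk, hto] at h2
    have h3 : orderOf ψ' = orderOf ψ := by
      rw [hψ']; exact MulEquiv.orderOf_eq (MulAut.congr eQ) ψ
    rw [h3]; exact Nat.Coprime.coprime_dvd_left h2 (by decide)
  obtain ⟨-, x₀, hx2, hx1, hx3, hx4⟩ := Cfsg.Agent.Lib.Helper1.q8_aut_odd ψ' hodd hne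
  have hNz : N ≤ Subgroup.zpowers z := by
    intro x hx
    have hxQ : x ∈ Q := hNQ hx
    have hcomm : t * x * t⁻¹ = x := by
      have h1 : x * t⁻¹ * x⁻¹ ∈ (P : Subgroup Γ) :=
        (Subgroup.mem_normalizer_iff.mp (hNnorm x hx P) t⁻¹).mp (inv_mem htP)
      have h2 : t * (x * t⁻¹ * x⁻¹) ∈ (P : Subgroup Γ) := mul_mem htP h1
      have h3 : t * (x * t⁻¹ * x⁻¹) ∈ Q := by
        have h5 : t * (x * t⁻¹ * x⁻¹) = (t * x * t⁻¹) * x⁻¹ := by group
        rw [h5]; exact mul_mem (hQn.conj_mem x hxQ t) (inv_mem hxQ)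
      have h4 : t * (x * t⁻¹ * x⁻¹) ∈ (P : Subgroup Γ) ⊓ Q := ⟨h2, h3⟩
      rw [hPQ P, Subgroup.mem_bot] at h4
      have h6 : t * x * t⁻¹ = (t * (x * t⁻¹ * x⁻¹)) * x := by group
      rw [h6, h4, one_mul]
    have hfix : ψ' (eQ ⟨x, hxQ⟩) = eQ ⟨x, hxQ⟩ := by
      rw [hψ'val, MulEquiv.symm_apply_apply]
      congr 1
      apply Subtype.ext
      rw [hψval]; exact hcomm
    rcases q8_fixed ψ' x₀ hx2 hx1 hx3 hx4 _ hfix with h | h
    · have h7 : (⟨x, hxQ⟩ : Q) = 1 := eQ.injective (h.trans (map_one eQ).symm)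
      have hx1' : x = 1 := congrArg Subtype.val h7
      rw [hx1']; exact one_mem _
    · have h7 : (⟨x, hxQ⟩ : Q) = eQ.symm (QuaternionGroup.a 2) := by
        rw [← h, MulEquiv.symm_apply_apply]
      have hxz : x = z := by rw [hz]; exact congrArg Subtype.val h7
      rw [hxz]; exact Subgroup.mem_zpowers z
  exact Subgroup.isCyclic_of_le hNz

/-- **Theorem A.** A finite solvable group with trivial `2'`-core whose Sylow `2`-subgroups are
cyclic or generalized quaternion has a homomorphism to `Sym(4)` with cyclic kernel. -/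
theorem exists_hom_cyclic_ker {Γ : Type*} [Group Γ] [Finite Γ] [Group.IsSolvable Γ]
    (hO : ∀ N : Subgroup Γ, N.Normal → (Nat.card N).Coprime 2 → N = ⊥)
    (T : Sylow 2 Γ)
    (hT : IsCyclic (T : Subgroup Γ) ∨
      ∃ n : ℕ, Nonempty ((T : Subgroup Γ) ≃* QuaternionGroup (2 ^ n))) :
    ∃ f : Γ →* Equiv.Perm (Fin 4), IsCyclic f.ker := by
  classical
  haveI : Fact (Nat.Prime 2) := ⟨Nat.prime_two⟩
  obtain ⟨Q, hQ⟩ : ∃ Q : Subgroup Γ, Q = Cfsg.pCore 2 Γ := ⟨_, rfl⟩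
  haveI hQn : Q.Normal := hQ ▸ Cfsg.pCore_normal 2 Γ
  have hQ2 : IsPGroup 2 Q := hQ ▸ Cfsg.Agent.Lib.Helper55.pCore_isPGroup 2 Γ
  have hQT : Q ≤ (T : Subgroup Γ) := hQ ▸ Cfsg.Agent.Lib.Helper55.pCore_le_sylow T
  have hCQ : Subgroup.centralizer (Q : Set Γ) ≤ Q :=
    hQ ▸ Cfsg.Agent.Lib.Helper55.centralizer_pCore_le hO
  have hmax : ∀ N : Subgroup Γ, N.Normal → IsPGroup 2 N → N ≤ Q := fun N hN hN2 =>
    hQ ▸ Cfsg.Agent.Lib.Helper55.le_pCore hN hN2
  have hnorm : ∀ g : Γ, g ∈ Subgroup.normalizer (Q : Set Γ) := fun g => by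
    rw [Subgroup.normalizer_eq_top]; exact Subgroup.mem_top g
  by_cases hall : ∀ g : Γ, (orderOf g).Coprime 2 → g ∈ Subgroup.centralizer (Q : Set Γ)
  · have hΓ2 : IsPGroup 2 Γ := by
      intro g
      obtain ⟨k, l, hl, hkl⟩ := Nat.exists_eq_two_pow_mul_odd (orderOf_pos g).ne'
      refine ⟨k, ?_⟩
      have hdvd : 2 ^ k ∣ orderOf g := ⟨l, hkl⟩
      have ho : orderOf (g ^ 2 ^ k) = l := by
        rw [orderOf_pow_of_dvd (pow_ne_zero k two_ne_zero) hdvd, hkl,
          Nat.mul_div_cancel_left _ (pow_pos two_pos k)]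
      have hc : g ^ 2 ^ k ∈ Q :=
        hCQ (hall _ (by rw [ho]; exact Nat.coprime_two_right.mpr hl))
      obtain ⟨j, hj⟩ := hQ2 ⟨g ^ 2 ^ k, hc⟩
      have hj' : (g ^ 2 ^ k) ^ 2 ^ j = 1 := congrArg Subtype.val hj
      have h1 : l ∣ 2 ^ j := by rw [← ho]; exact orderOf_dvd_of_pow_eq_one hj'
      have h2 : l = 1 :=
        Nat.Coprime.eq_one_of_dvd (Nat.Coprime.pow_right j (Nat.coprime_two_right.mpr hl)) h1
      rw [h2] at ho
      exact orderOf_eq_one_iff.mp ho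
    have hTtop : (⊤ : Subgroup Γ) = T := T.is_maximal' (hΓ2.to_subgroup ⊤) le_top
    rcases hT with hc | ⟨n, ⟨e⟩⟩
    · refine ⟨1, ?_⟩
      rw [MonoidHom.ker_one, hTtop]; exact hc
    · obtain ⟨e', he'⟩ : ∃ e' : Γ ≃* QuaternionGroup (2 ^ n),
          e' = (Subgroup.topEquiv.symm.trans (MulEquiv.subgroupCongr hTtop)).trans e := ⟨_, rfl⟩
      haveI : NeZero (2 ^ n) := ⟨pow_ne_zero n two_ne_zero⟩
      obtain ⟨A, hA⟩ : ∃ A : Subgroup (QuaternionGroup (2 ^ n)),
          A = Subgroup.zpowers (QuaternionGroup.a 1) := ⟨_, rfl⟩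
      have hAidx : A.index = 2 := by
        have h1 := Subgroup.card_mul_index A
        have h2 : Nat.card A = 2 * 2 ^ n := by
          rw [hA, Nat.card_zpowers, QuaternionGroup.orderOf_a_one]
        rw [h2, Nat.card_eq_fintype_card, QuaternionGroup.card] at h1
        have hpos : 0 < 2 * 2 ^ n := by positivity
        exact Nat.eq_of_mul_eq_mul_left hpos (h1.trans (by ring))
      obtain ⟨C, hC⟩ : ∃ C : Subgroup Γ, C = A.comap e'.toMonoidHom := ⟨_, rfl⟩
      have hCidx : C.index = 2 := by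
        rw [hC, Subgroup.index_comap_of_surjective _ e'.surjective, hAidx]
      have hCcyc : IsCyclic C := by
        haveI : IsCyclic A := by rw [hA]; infer_instance
        obtain ⟨ψ, hψ⟩ : ∃ ψ : C →* A, ∀ x : C, ((ψ x : A) : QuaternionGroup (2 ^ n)) = e' x := by
          refine ⟨(e'.toMonoidHom.comp C.subtype).codRestrict A (fun x => ?_), fun x => rfl⟩
          have h3 : (x : Γ) ∈ A.comap e'.toMonoidHom := hC ▸ x.2
          exact h3
        apply isCyclic_of_injective ψ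
        intro x y hxy
        have h4 := congrArg Subtype.val hxy
        rw [hψ, hψ] at h4
        exact Subtype.ext (e'.injective h4)
      obtain ⟨f, hf⟩ := exists_hom_of_index_two C hCidx
      exact ⟨f, by rw [hf]; exact hCcyc⟩
  · push Not at hall
    obtain ⟨g, hgodd, hgc⟩ := hall
    have hg1 : g ≠ 1 := by rintro rfl; exact hgc (one_mem _)
    rcases hT with hc | ⟨n, ⟨e⟩⟩
    · exfalso
      haveI := hc
      have hQc : IsCyclic Q := Subgroup.isCyclic_of_le hQT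
      exact hgc (Cfsg.Agent.Lib.Helper1.mem_centralizer_of_cyclic_two_group Q hQc hQ2 g
        (hnorm g) hgodd)
    · obtain ⟨eQ⟩ := Cfsg.Agent.Lib.Helper1.quaternion_eight_of_odd_action T n e Q hQT g
        (hnorm g) hgodd hgc
      exact q8_case Q hmax hCQ eQ g hgodd hg1

end Cfsg.Agent.Lib.Helper4.FC
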