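import Mathlib
import Cfsg.Prelude.Def_OddOrderChar
import Cfsg.Agent.Lib.Helper26.Coh
import Cfsg.Agent.Lib.Helper26.VChar
import Cfsg.Agent.Lib.Helper25.CohSys
import Cfsg.Agent.Lib.Helper25.DiffCoh
import Cfsg.Agent.Lib.Helper25.NormTwo
import Cfsg.Agent.Lib.Helper80.CharKer
import Cfsg.Agent.Lib.Helper80.CharOps

/-!
# Coherence without conjugate pairs (Feit's criterion)

`HasExt T τ`: the isometry `τ`, defined on the integer combinations of the finite set `T` of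
irreducible characters vanishing at `1`, extends to all integer combinations of `T`.
-/

set_option autoImplicit false

namespace Cfsg.Agent.Lib.Helper4.Feit

open Cfsg Cfsg.Agent.Lib.Helper26 Cfsg.Agent.Lib.Helper25
open scoped ComplexConjugate

variable {L : Type*} [Group L] [Fintype L] {G : Type*} [Group G] [Fintype G]

/-- Extension data for `τ` on the finite set `T`. -/
def HasExt (T : Finset (L → ℂ)) (τ : (L → ℂ) → (G → ℂ)) : Prop :=
  ∃ E : (L → ℂ) → (G → ℂ), (∀ a ∈ T, IsGeneralizedCharacter G (E a)) ∧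
    (∀ a ∈ T, ∀ b ∈ T, classInner (E a) (E b) = classInner a b) ∧
    ∀ α ∈ zspanOn (↑T : Set (L → ℂ)) {1}ᶜ, τ α = extMap T E α

omit [Group G] [Fintype G] in
theorem extMap_sub' (F : Finset (L → ℂ)) (T : (L → ℂ) → (G → ℂ)) (a b : L → ℂ) :
    extMap F T (a - b) = extMap F T a - extMap F T b := by
  have h : a - b = a + (-1 : ℤ) • b := by rw [neg_one_zsmul, sub_eq_add_neg]
  rw [h, extMap_add, extMap_zsmul, neg_one_zsmul, sub_eq_add_neg]

omit [Group G] [Fintype G] in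
theorem extMap_zero' (F : Finset (L → ℂ)) (T : (L → ℂ) → (G → ℂ)) :
    extMap F T 0 = 0 := by
  have h := extMap_zsmul F T 0 (0 : L → ℂ)
  rw [zero_smul, zero_smul] at h
  exact h

theorem irr_orth {T : Finset (L → ℂ)} (hirr : ∀ a ∈ T, IsIrrCharacter L a) :
    ∀ χ ∈ T, ∀ φ ∈ T, χ ≠ φ → classInner χ φ = 0 :=
  fun χ hχ φ hφ h => classInner_irr_ne (hirr χ hχ) (hirr φ hφ) h

theorem irr_norm {T : Finset (L → ℂ)} (hirr : ∀ a ∈ T, IsIrrCharacter L a) :
    ∀ χ ∈ T, classInner χ χ ≠ 0 := by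
  intro χ hχ
  rw [classInner_irr_self (hirr χ hχ)]
  exact one_ne_zero

/-- From extension data to coherence. -/
theorem HasExt.isCoherent {T : Finset (L → ℂ)} {τ : (L → ℂ) → (G → ℂ)}
    (hirr : ∀ a ∈ T, IsIrrCharacter L a) (h : HasExt T τ)
    (hne : ∃ α ∈ zspanOn (↑T : Set (L → ℂ)) {1}ᶜ, α ≠ 0) :
    IsCoherent (↑T : Set (L → ℂ)) {1}ᶜ τ := by
  obtain ⟨E, hE1, hE2, hE3⟩ := h
  exact ⟨hne, extMap T E, extMap_isometry (irr_orth hirr) (irr_norm hirr) E hE2 hE1,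
    fun α hα => (hE3 α hα).symm⟩

/-- The value at `1` of a generalized character of norm one is nonzero. -/
theorem gen_norm_one_ne_zero {θ : G → ℂ} (hθ : IsGeneralizedCharacter G θ)
    (h1 : classInner θ θ = 1) : θ 1 ≠ 0 := by
  classical
  haveI : Finite (IrrCharacter G) := irr_finite
  haveI : Fintype (IrrCharacter G) := Fintype.ofFinite _
  rcases irr_or_neg_of_norm_one hθ h1 with h | h
  · exact Cfsg.Agent.Lib.Helper80.char_one_ne_zero h
  · have h2 := Cfsg.Agent.Lib.Helper80.char_one_ne_zero h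
    intro h3
    apply h2
    rw [Pi.neg_apply, h3, neg_zero]


/-- Feit's step: adjoin one character to a set with extension data. -/
theorem hasExt_insert (U T : Finset (L → ℂ)) (τ : (L → ℂ) → (G → ℂ)) (hTU : T ⊆ U)
    (hirr : ∀ a ∈ U, IsIrrCharacter L a)
    (hτ : IsLinearIsometryOn (zspanOn (↑U : Set (L → ℂ)) {1}ᶜ) τ)
    (hτ1 : ∀ α ∈ zspanOn (↑U : Set (L → ℂ)) {1}ᶜ, τ α 1 = 0)
    (d : ℂ) (ℓ : (L → ℂ) → ℕ) (hℓ : ∀ a ∈ U, a 1 = (ℓ a : ℂ) * d)
    (χ₁ : L → ℂ) (hχ₁ : χ₁ ∈ T) (hℓ1 : ℓ χ₁ = 1)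
    (hT : HasExt T τ) (ψ : L → ℂ) (hψU : ψ ∈ U) (hψT : ψ ∉ T)
    (hineq : 2 * ℓ ψ < ∑ a ∈ T, (ℓ a) ^ 2) : HasExt (insert ψ T) τ := by
  classical
  obtain ⟨E, hE1, hE2, hE3⟩ := hT
  have hirrT : ∀ a ∈ T, IsIrrCharacter L a := fun a ha => hirr a (hTU ha)
  have hχ₁U : χ₁ ∈ U := hTU hχ₁
  have hψχ₁ : ψ ≠ χ₁ := fun h => hψT (h ▸ hχ₁)
  have hd : χ₁ 1 = d := by rw [hℓ χ₁ hχ₁U, hℓ1, Nat.cast_one, one_mul]
  have hψ1 : ψ 1 = (ℓ ψ : ℂ) * d := hℓ ψ hψU
  have hℓψ : 1 ≤ ℓ ψ := by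
    rcases Nat.eq_zero_or_pos (ℓ ψ) with h | h
    · exfalso
      apply Cfsg.Agent.Lib.Helper80.char_one_ne_zero (hirr ψ hψU)
      rw [hψ1, h, Nat.cast_zero, zero_mul]
    · exact h
  have hspanU : ∀ a ∈ U, a ∈ Submodule.span ℤ (↑U : Set (L → ℂ)) :=
    fun a ha => Submodule.subset_span ha
  have hspanT : ∀ a ∈ T, a ∈ Submodule.span ℤ (↑T : Set (L → ℂ)) :=
    fun a ha => Submodule.subset_span ha
  -- the basic element
  obtain ⟨α₀, hα₀def⟩ : ∃ α₀ : L → ℂ, α₀ = ((ℓ ψ : ℕ) : ℤ) • χ₁ - ψ := ⟨_, rfl⟩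
  have hα₀ : α₀ ∈ zspanOn (↑U : Set (L → ℂ)) {1}ᶜ := by
    rw [mem_zspanOn_one]
    refine ⟨?_, ?_⟩
    · rw [hα₀def]
      exact Submodule.sub_mem _ (Submodule.smul_mem _ _ (hspanU χ₁ hχ₁U)) (hspanU ψ hψU)
    · rw [hα₀def, Pi.sub_apply, zsmul_apply', hd, hψ1]
      push_cast
      ring
  have hγmem : ∀ a ∈ T, a - ((ℓ a : ℕ) : ℤ) • χ₁ ∈ zspanOn (↑T : Set (L → ℂ)) {1}ᶜ := by
    intro a ha
    rw [mem_zspanOn_one]
    refine ⟨Submodule.sub_mem _ (hspanT a ha) (Submodule.smul_mem _ _ (hspanT χ₁ hχ₁)), ?_⟩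
    rw [Pi.sub_apply, zsmul_apply', hd, hℓ a (hTU ha)]
    push_cast
    ring
  have hTsub : zspanOn (↑T : Set (L → ℂ)) {1}ᶜ ⊆ zspanOn (↑U : Set (L → ℂ)) {1}ᶜ :=
    zspanOn_mono (Finset.coe_subset.2 hTU) _
  have hEγ : ∀ a ∈ T, τ (a - ((ℓ a : ℕ) : ℤ) • χ₁) = E a - ((ℓ a : ℕ) : ℤ) • E χ₁ := by
    intro a ha
    rw [hE3 _ (hγmem a ha), extMap_sub', extMap_zsmul,
      extMap_apply_mem (irr_orth hirrT) (irr_norm hirrT) E ha,
      extMap_apply_mem (irr_orth hirrT) (irr_norm hirrT) E hχ₁]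
  obtain ⟨β, hβdef⟩ : ∃ β : G → ℂ, β = τ α₀ := ⟨_, rfl⟩
  have hβgen : IsGeneralizedCharacter G β := by rw [hβdef]; exact hτ.2.2.2 α₀ hα₀
  have hβ1 : β 1 = 0 := by rw [hβdef]; exact hτ1 α₀ hα₀
  have hββ : classInner β β = ((ℓ ψ : ℂ)) ^ 2 + 1 := by
    rw [hβdef, hτ.2.2.1 α₀ hα₀ α₀ hα₀, hα₀def, classInner_sub_left, classInner_sub_right,
      classInner_sub_right, classInner_zsmul_left, classInner_zsmul_left, classInner_zsmul_right,
      classInner_zsmul_right, classInner_irr_self (hirr χ₁ hχ₁U),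
      classInner_irr_ne (hirr χ₁ hχ₁U) (hirr ψ hψU) (Ne.symm hψχ₁),
      classInner_irr_ne (hirr ψ hψU) (hirr χ₁ hχ₁U) hψχ₁, classInner_irr_self (hirr ψ hψU)]
    push_cast
    ring
  have hαγ : ∀ a ∈ T, classInner α₀ (a - ((ℓ a : ℕ) : ℤ) • χ₁)
      = ((ℓ ψ : ℂ)) * (if χ₁ = a then 1 else 0) - (ℓ ψ : ℂ) * (ℓ a : ℂ) := by
    intro a ha
    have haψ : ψ ≠ a := fun h => hψT (h ▸ ha)
    rw [hα₀def, classInner_sub_left, classInner_sub_right, classInner_sub_right,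
      classInner_zsmul_left, classInner_zsmul_left, classInner_zsmul_right,
      classInner_zsmul_right, classInner_irr_self (hirr χ₁ hχ₁U),
      classInner_irr_ne (hirr ψ hψU) (hirr a (hTU ha)) haψ,
      classInner_irr_ne (hirr ψ hψU) (hirr χ₁ hχ₁U) hψχ₁,
      classInner_irr (hirr χ₁ hχ₁U) (hirr a (hTU ha))]
    push_cast
    ring
  haveI : Finite (IrrCharacter G) := irr_finite
  haveI : Fintype (IrrCharacter G) := Fintype.ofFinite _
  obtain ⟨k, hk⟩ := classInner_gen_int hβgen (hE1 χ₁ hχ₁)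
  obtain ⟨x, hx⟩ : ∃ x : ℤ, x = k - (ℓ ψ : ℤ) := ⟨_, rfl⟩
  have hinner : ∀ a ∈ T, classInner β (E a)
      = (((ℓ a : ℤ) * x + (if a = χ₁ then (ℓ ψ : ℤ) else 0) : ℤ) : ℂ) := by
    intro a ha
    have h0 := hαγ a ha
    have h1 : classInner β (τ (a - ((ℓ a : ℕ) : ℤ) • χ₁))
        = classInner α₀ (a - ((ℓ a : ℕ) : ℤ) • χ₁) := by
      rw [hβdef]
      exact hτ.2.2.1 α₀ hα₀ _ (hTsub (hγmem a ha))
    rw [hEγ a ha, classInner_sub_right, classInner_zsmul_right, hk, h0] at h1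
    by_cases h : a = χ₁
    · rw [if_pos h.symm] at h1
      rw [if_pos h, hx]
      push_cast at h1 ⊢
      linear_combination h1
    · rw [if_neg (Ne.symm h)] at h1
      rw [if_neg h, hx]
      push_cast at h1 ⊢
      linear_combination h1
  have horthE : ∀ i ∈ T, ∀ j ∈ T, i ≠ j → classInner (E i) (E j) = 0 := by
    intro i hi j hj hij
    rw [hE2 i hi j hj]
    exact classInner_irr_ne (hirrT i hi) (hirrT j hj) hij
  have hnormE : ∀ i ∈ T, classInner (E i) (E i) = (((1 : ℝ)) : ℂ) := by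
    intro i hi
    rw [hE2 i hi i hi, classInner_irr_self (hirrT i hi), Complex.ofReal_one]
  have hbes := bessel_identity T E (fun _ => (1 : ℝ)) (fun _ _ => one_ne_zero) horthE hnormE β
  obtain ⟨Δ, hΔ⟩ : ∃ Δ : G → ℂ,
      Δ = β - ∑ i ∈ T, (classInner β (E i) / (((1 : ℝ)) : ℂ)) • E i := ⟨_, rfl⟩
  rw [← hΔ] at hbes
  obtain ⟨S2, hS2⟩ : ∃ S2 : ℤ, S2 = ∑ a ∈ T, ((ℓ a : ℤ)) ^ 2 := ⟨_, rfl⟩
  have hsum : (∑ i ∈ T, ‖classInner β (E i)‖ ^ 2 / (1 : ℝ) : ℝ)
      = ((x * x * S2 + 2 * x * (ℓ ψ : ℤ) + (ℓ ψ : ℤ) ^ 2 : ℤ) : ℝ) := by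
    have h1 : ∀ a ∈ T, ‖classInner β (E a)‖ ^ 2 / (1 : ℝ)
        = (((ℓ a : ℤ) ^ 2 * (x * x)
          + (if a = χ₁ then 2 * x * (ℓ ψ : ℤ) + (ℓ ψ : ℤ) ^ 2 else 0) : ℤ) : ℝ) := by
      intro a ha
      rw [hinner a ha, Complex.norm_intCast, sq_abs, div_one]
      by_cases h : a = χ₁
      · rw [if_pos h, if_pos h, h, hℓ1]; push_cast; ring
      · rw [if_neg h, if_neg h]; push_cast; ring
    rw [Finset.sum_congr rfl h1, ← Int.cast_sum, Finset.sum_add_distrib, ← Finset.sum_mul,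
      Finset.sum_ite_eq' T χ₁, if_pos hχ₁, ← hS2]
    push_cast; ring
  have hcast : ((ℓ ψ : ℂ)) ^ 2 + 1
      - (((((x * x * S2 + 2 * x * (ℓ ψ : ℤ) + (ℓ ψ : ℤ) ^ 2 : ℤ) : ℝ)) : ℝ) : ℂ)
      = (((1 - (x * x * S2 + 2 * x * (ℓ ψ : ℤ)) : ℤ)) : ℂ) := by
    push_cast; ring
  rw [hββ, hsum, hcast] at hbes
  have hre : (0 : ℝ) ≤ (classInner Δ Δ).re := classInner_self_re_nonneg Δ
  rw [hbes, Complex.intCast_re] at hre
  have hint : x * x * S2 + 2 * x * (ℓ ψ : ℤ) ≤ 1 := by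
    have : (0 : ℤ) ≤ 1 - (x * x * S2 + 2 * x * (ℓ ψ : ℤ)) := by exact_mod_cast hre
    linarith
  have hS2' : 2 * (ℓ ψ : ℤ) + 1 ≤ S2 := by
    rw [hS2]
    have := Nat.succ_le_of_lt hineq
    exact_mod_cast this
  have hl : (1 : ℤ) ≤ (ℓ ψ : ℤ) := by exact_mod_cast hℓψ
  have t1 : x * x * (2 * (ℓ ψ : ℤ) + 1) ≤ x * x * S2 :=
    mul_le_mul_of_nonneg_left hS2' (mul_self_nonneg x)
  have hx_cases : x = 0 ∨ (x = -1 ∧ S2 = 2 * (ℓ ψ : ℤ) + 1) := by
    rcases lt_trichotomy x 0 with hneg | hzero | hpos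
    · right
      by_cases hx2 : x ≤ -2
      · exfalso
        have t3 : (0 : ℤ) ≤ (ℓ ψ : ℤ) * (x * (x + 1)) :=
          mul_nonneg (by linarith) (mul_nonneg_of_nonpos_of_nonpos (by linarith) (by linarith))
        have t4 : (4 : ℤ) ≤ x * x := by nlinarith
        nlinarith
      · have hx1 : x = -1 := by omega
        refine ⟨hx1, ?_⟩
        rw [hx1] at hint
        linarith
    · exact Or.inl hzero
    · exfalso
      have t4 : (1 : ℤ) ≤ x * x := by nlinarith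
      have t5 : (0 : ℤ) ≤ (ℓ ψ : ℤ) * (x * x - 1) := mul_nonneg (by linarith) (by linarith)
      have t6 : (0 : ℤ) ≤ (ℓ ψ : ℤ) * (x - 1) := mul_nonneg (by linarith) (by linarith)
      nlinarith
  have hE1val : ∀ a ∈ T, E a 1 = (ℓ a : ℂ) * E χ₁ 1 := by
    intro a ha
    have h := hτ1 _ (hTsub (hγmem a ha))
    rw [hEγ a ha, Pi.sub_apply, zsmul_apply'] at h
    push_cast at h
    linear_combination h
  have hnormχ₁ : classInner (E χ₁) (E χ₁) = 1 := by
    rw [hE2 χ₁ hχ₁ χ₁ hχ₁]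
    exact classInner_irr_self (hirrT χ₁ hχ₁)
  rcases hx_cases with hx0 | ⟨hx1, hS2eq⟩
  · -- the good case
    have hinner0 : ∀ a ∈ T, classInner β (E a) = if a = χ₁ then (ℓ ψ : ℂ) else 0 := by
      intro a ha
      rw [hinner a ha, hx0]
      by_cases h : a = χ₁
      · rw [if_pos h, if_pos h]; push_cast; ring
      · rw [if_neg h, if_neg h]; push_cast; ring
    obtain ⟨ξ, hξ⟩ : ∃ ξ : G → ℂ, ξ = ((ℓ ψ : ℕ) : ℤ) • E χ₁ - β := ⟨_, rfl⟩
    have hξgen : IsGeneralizedCharacter G ξ := by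
      rw [hξ]
      exact isGen_sub (isGen_zsmul (hE1 χ₁ hχ₁) _) hβgen
    have hβχ₁ : classInner β (E χ₁) = (ℓ ψ : ℂ) := by rw [hinner0 χ₁ hχ₁, if_pos rfl]
    have hχ₁β : classInner (E χ₁) β = (ℓ ψ : ℂ) := by
      rw [← classInner_conj_symm, hβχ₁, Complex.conj_natCast]
    have hξξ : classInner ξ ξ = 1 := by
      rw [hξ, classInner_sub_left, classInner_sub_right, classInner_sub_right,
        classInner_zsmul_left, classInner_zsmul_left, classInner_zsmul_right,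
        classInner_zsmul_right, hnormχ₁, hχ₁β, hβχ₁, hββ]
      push_cast
      ring
    have hξE : ∀ a ∈ T, classInner ξ (E a) = 0 := by
      intro a ha
      rw [hξ, classInner_sub_left, classInner_zsmul_left, hinner0 a ha, hE2 χ₁ hχ₁ a ha,
        classInner_irr (hirrT χ₁ hχ₁) (hirrT a ha)]
      by_cases h : a = χ₁
      · rw [if_pos h, if_pos h.symm]; push_cast; ring
      · rw [if_neg h, if_neg (Ne.symm h)]; push_cast; ring
    have hEξ : ∀ a ∈ T, classInner (E a) ξ = 0 := by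
      intro a ha
      rw [← classInner_conj_symm, hξE a ha, map_zero]
    have hneT : ∀ a ∈ T, a ≠ ψ := fun a ha h => hψT (h ▸ ha)
    refine ⟨Function.update E ψ ξ, ?_, ?_, ?_⟩
    · intro a ha
      rcases Finset.mem_insert.1 ha with h | h
      · rw [h, Function.update_self]; exact hξgen
      · rw [Function.update_of_ne (hneT a h)]; exact hE1 a h
    · intro a ha b hb
      rcases Finset.mem_insert.1 ha with h | h <;> rcases Finset.mem_insert.1 hb with h' | h'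
      · rw [h, h', Function.update_self, hξξ, classInner_irr_self (hirr ψ hψU)]
      · rw [h, Function.update_self, Function.update_of_ne (hneT b h'), hξE b h',
          classInner_irr_ne (hirr ψ hψU) (hirrT b h') (Ne.symm (hneT b h'))]
      · rw [h', Function.update_self, Function.update_of_ne (hneT a h), hEξ a h,
          classInner_irr_ne (hirrT a h) (hirr ψ hψU) (hneT a h)]
      · rw [Function.update_of_ne (hneT a h), Function.update_of_ne (hneT b h'), hE2 a h b h']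
    · intro α hα
      have hirrI : ∀ a ∈ insert ψ T, IsIrrCharacter L a := by
        intro a ha
        rcases Finset.mem_insert.1 ha with h | h
        · rw [h]; exact hirr ψ hψU
        · exact hirrT a h
      obtain ⟨hαspan, hα1⟩ := mem_zspanOn_one.1 hα
      obtain ⟨f, hf⟩ := mem_zspan_finset.1 hαspan
      have hsumE : ∑ a ∈ T, f a • Function.update E ψ ξ a = ∑ a ∈ T, f a • E a :=
        Finset.sum_congr rfl (fun a ha => by rw [Function.update_of_ne (hneT a ha)])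
      have hgoal : extMap (insert ψ T) (Function.update E ψ ξ) α
          = f ψ • ξ + ∑ a ∈ T, f a • E a := by
        rw [hf, extMap_comb (irr_orth hirrI) (irr_norm hirrI), Finset.sum_insert hψT,
          Function.update_self, hsumE]
      rw [hgoal]
      obtain ⟨α', hα'⟩ : ∃ α' : L → ℂ,
          α' = ∑ a ∈ T, f a • a + (f ψ * ((ℓ ψ : ℕ) : ℤ)) • χ₁ := ⟨_, rfl⟩
      have hαeq : α = α' + (-f ψ) • α₀ := by
        rw [hα', hα₀def, hf, Finset.sum_insert hψT, mul_smul, neg_smul, smul_sub]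
        abel
      have hα'mem : α' ∈ zspanOn (↑T : Set (L → ℂ)) {1}ᶜ := by
        rw [mem_zspanOn_one]
        refine ⟨?_, ?_⟩
        · rw [hα']
          exact Submodule.add_mem _
            (Submodule.sum_mem _ (fun a ha => Submodule.smul_mem _ _ (hspanT a ha)))
            (Submodule.smul_mem _ _ (hspanT χ₁ hχ₁))
        · have h1 : α' = α + (f ψ) • α₀ := by
            rw [hαeq, neg_smul]; abel
          have h2 : α₀ 1 = 0 := (mem_zspanOn_one.1 hα₀).2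
          rw [h1, Pi.add_apply, zsmul_apply', hα1, h2, mul_zero, add_zero]
      have hsm : (-f ψ) • α₀ ∈ zspanOn (↑U : Set (L → ℂ)) {1}ᶜ :=
        (zspanOnSub (↑U : Set (L → ℂ)) {1}ᶜ).smul_mem _ hα₀
      rw [hαeq, hτ.1 α' (hTsub hα'mem) _ hsm, hτ.2.1 α₀ hα₀, hE3 α' hα'mem, ← hβdef, hα',
        extMap_add, extMap_zsmul, extMap_comb (irr_orth hirrT) (irr_norm hirrT),
        extMap_apply_mem (irr_orth hirrT) (irr_norm hirrT) E hχ₁, hξ, mul_smul, neg_smul,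
        smul_sub]
      abel
  · -- the exceptional case is impossible
    exfalso
    have hΔ0 : classInner Δ Δ = 0 := by
      rw [hbes, hx1, hS2eq]
      push_cast
      ring
    have hΔz : Δ = 0 := classInner_self_eq_zero hΔ0
    have hβeq : β = ∑ i ∈ T, (classInner β (E i) / (((1 : ℝ)) : ℂ)) • E i := by
      rw [hΔz] at hΔ
      exact sub_eq_zero.1 hΔ.symm
    have h1 : ∀ a ∈ T, ((classInner β (E a) / (((1 : ℝ)) : ℂ)) • E a) 1
        = E χ₁ 1 * ((((ℓ a : ℤ) ^ 2 * x + (if a = χ₁ then (ℓ ψ : ℤ) else 0) : ℤ)) : ℂ) := by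
      intro a ha
      rw [Pi.smul_apply, smul_eq_mul, hinner a ha, hE1val a ha, Complex.ofReal_one, div_one]
      by_cases h : a = χ₁
      · rw [if_pos h, h, hℓ1]; push_cast; ring
      · rw [if_neg h]; push_cast; ring
    have h2 : β 1 = E χ₁ 1 * (((S2 * x + (ℓ ψ : ℤ) : ℤ)) : ℂ) := by
      conv_lhs => rw [hβeq]
      rw [Finset.sum_apply, Finset.sum_congr rfl h1, ← Finset.mul_sum, ← Int.cast_sum,
        Finset.sum_add_distrib, ← Finset.sum_mul, Finset.sum_ite_eq' T χ₁, if_pos hχ₁, ← hS2]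
    rw [hβ1, hx1, hS2eq] at h2
    have h3 : E χ₁ 1 = 0 := by
      rcases mul_eq_zero.1 h2.symm with h | h
      · exact h
      · exfalso
        have h4 : ((2 * (ℓ ψ : ℤ) + 1) * -1 + (ℓ ψ : ℤ) : ℤ) = 0 := by exact_mod_cast h
        linarith
    exact gen_norm_one_ne_zero (hE1 χ₁ hχ₁) hnormχ₁ h3


/-- Adjoining all characters of `U` outside `T₀`, as soon as each is small against `T₀`. -/
theorem hasExt_of_step (U T₀ : Finset (L → ℂ)) (τ : (L → ℂ) → (G → ℂ)) (hT₀U : T₀ ⊆ U)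
    (hirr : ∀ a ∈ U, IsIrrCharacter L a)
    (hτ : IsLinearIsometryOn (zspanOn (↑U : Set (L → ℂ)) {1}ᶜ) τ)
    (hτ1 : ∀ α ∈ zspanOn (↑U : Set (L → ℂ)) {1}ᶜ, τ α 1 = 0)
    (d : ℂ) (ℓ : (L → ℂ) → ℕ) (hℓ : ∀ a ∈ U, a 1 = (ℓ a : ℂ) * d)
    (χ₁ : L → ℂ) (hχ₁ : χ₁ ∈ T₀) (hℓ1 : ℓ χ₁ = 1)
    (hT₀ : HasExt T₀ τ)
    (hstep : ∀ ψ ∈ U, ψ ∉ T₀ → 2 * ℓ ψ < ∑ a ∈ T₀, (ℓ a) ^ 2) : HasExt U τ := by
  classical
  have key : ∀ R : Finset (L → ℂ), R ⊆ U \ T₀ → HasExt (T₀ ∪ R) τ := by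
    intro R
    induction R using Finset.induction_on with
    | empty => intro _; rw [Finset.union_empty]; exact hT₀
    | insert ψ R hψR ih =>
      intro hsub
      have hR : R ⊆ U \ T₀ := fun a ha => hsub (Finset.mem_insert_of_mem ha)
      have hψ := Finset.mem_sdiff.1 (hsub (Finset.mem_insert_self ψ R))
      rw [Finset.union_insert]
      refine hasExt_insert U (T₀ ∪ R) τ ?_ hirr hτ hτ1 d ℓ hℓ χ₁ (Finset.mem_union_left _ hχ₁)
        hℓ1 (ih hR) ψ hψ.1 ?_ ?_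
      · exact Finset.union_subset hT₀U (fun a ha => (Finset.mem_sdiff.1 (hR ha)).1)
      · intro h
        rcases Finset.mem_union.1 h with h | h
        · exact hψ.2 h
        · exact hψR h
      · exact lt_of_lt_of_le (hstep ψ hψ.1 hψ.2)
          (Finset.sum_le_sum_of_subset Finset.subset_union_left)
  have h := key (U \ T₀) (Finset.Subset.refl _)
  rwa [Finset.union_sdiff_of_subset hT₀U] at h

/-- A set of irreducible characters of equal degree always has extension data. -/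
theorem hasExt_of_equal_degree (U F : Finset (L → ℂ)) (τ : (L → ℂ) → (G → ℂ)) (hFU : F ⊆ U)
    (hirr : ∀ a ∈ U, IsIrrCharacter L a)
    (hτ : IsLinearIsometryOn (zspanOn (↑U : Set (L → ℂ)) {1}ᶜ) τ)
    (hτ1 : ∀ α ∈ zspanOn (↑U : Set (L → ℂ)) {1}ᶜ, τ α 1 = 0)
    (hdeg : ∀ a ∈ F, ∀ b ∈ F, a 1 = b 1) : HasExt F τ := by
  classical
  have hirrF : ∀ a ∈ F, IsIrrCharacter L a := fun a ha => hirr a (hFU ha)
  have hτ' : IsLinearIsometryOn
      ((zspanOnSub (↑U : Set (L → ℂ)) {1}ᶜ : Submodule ℤ (L → ℂ)) : Set (L → ℂ)) τ := hτ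
  by_cases h2 : ∃ a₁ ∈ F, ∃ a₂ ∈ F, a₁ ≠ a₂
  · obtain ⟨a₁, ha₁, a₂, ha₂, hne12⟩ := h2
    have hmem : ∀ a ∈ F, ∀ b ∈ F, a - b ∈ zspanOn (↑U : Set (L → ℂ)) {1}ᶜ := by
      intro a ha b hb
      rw [mem_zspanOn_one]
      refine ⟨Submodule.sub_mem _ (Submodule.subset_span (hFU ha))
        (Submodule.subset_span (hFU hb)), ?_⟩
      rw [Pi.sub_apply, hdeg a ha b hb, sub_self]
    let β : {a // a ∈ F} → {a // a ∈ F} → (G → ℂ) := fun i j => τ (i.1 - j.1)
    have hadd : ∀ i j k, β i j + β j k = β i k := by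
      intro i j k
      show τ (i.1 - j.1) + τ (j.1 - k.1) = τ (i.1 - k.1)
      rw [← hτ.1 _ (hmem _ i.2 _ j.2) _ (hmem _ j.2 _ k.2)]
      congr 1
      abel
    have hinn : ∀ a ∈ F, ∀ b ∈ F, ∀ c ∈ F, a ≠ b → a ≠ c →
        classInner (a - b) (a - c) = if b = c then 2 else 1 := by
      intro a ha b hb c hc hab hac
      rw [classInner_sub_left, classInner_sub_right, classInner_sub_right,
        classInner_irr_self (hirrF a ha), classInner_irr_ne (hirrF a ha) (hirrF c hc) hac,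
        classInner_irr_ne (hirrF b hb) (hirrF a ha) (Ne.symm hab),
        classInner_irr (hirrF b hb) (hirrF c hc)]
      by_cases h : b = c
      · rw [if_pos h, if_pos h]; norm_num
      · rw [if_neg h, if_neg h]; norm_num
    have hirr' : ∀ i j, i ≠ j → ∃ a b : G → ℂ, IsIrrCharacter G a ∧ IsIrrCharacter G b ∧ a ≠ b ∧
        β i j = a - b := by
      intro i j hij
      have hne : i.1 ≠ j.1 := fun h => hij (Subtype.ext h)
      refine gen_norm_two (hτ.2.2.2 _ (hmem _ i.2 _ j.2)) ?_ (hτ1 _ (hmem _ i.2 _ j.2))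
      rw [hτ.2.2.1 _ (hmem _ i.2 _ j.2) _ (hmem _ i.2 _ j.2), hinn _ i.2 _ j.2 _ j.2 hne hne,
        if_pos rfl]
    have hinner : ∀ i j k, i ≠ j → i ≠ k → j ≠ k → classInner (β i j) (β i k) = 1 := by
      intro i j k hij hik hjk
      show classInner (τ (i.1 - j.1)) (τ (i.1 - k.1)) = 1
      rw [hτ.2.2.1 _ (hmem _ i.2 _ j.2) _ (hmem _ i.2 _ k.2),
        hinn _ i.2 _ j.2 _ k.2 (fun h => hij (Subtype.ext h)) (fun h => hik (Subtype.ext h)),
        if_neg (fun h => hjk (Subtype.ext h))]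
    obtain ⟨δ, μ, hδ, hμirr, hμinj, hβ⟩ := diff_coherent β ⟨a₁, ha₁⟩ hadd hirr' hinner
    let E : (L → ℂ) → (G → ℂ) := fun a => if h : a ∈ F then δ • μ ⟨a, h⟩ else 0
    have hE : ∀ a (ha : a ∈ F), E a = δ • μ ⟨a, ha⟩ := by
      intro a ha
      show (if h : a ∈ F then δ • μ ⟨a, h⟩ else 0) = δ • μ ⟨a, ha⟩
      rw [dif_pos ha]
    have hδδ : δ * (starRingEnd ℂ) δ = 1 := by
      rcases hδ with h | h <;> rw [h] <;> simp
    refine ⟨E, ?_, ?_, ?_⟩
    · intro a ha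
      rw [hE a ha]
      rcases hδ with h | h
      · rw [h, one_smul]; exact isGen_of_irr (hμirr _)
      · rw [h, neg_one_smul]; exact isGen_neg (isGen_of_irr (hμirr _))
    · intro a ha b hb
      rw [hE a ha, hE b hb, classInner_smul_left, classInner_smul_right, ← mul_assoc, hδδ,
        one_mul]
      by_cases hab : a = b
      · subst hab
        rw [classInner_irr_self (hμirr _), classInner_irr_self (hirrF a ha)]
      · rw [classInner_irr_ne (hμirr _) (hμirr _)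
            (fun h => hab (congrArg Subtype.val (hμinj h))),
          classInner_irr_ne (hirrF a ha) (hirrF b hb) hab]
    · intro α hα
      obtain ⟨hαspan, hα1⟩ := mem_zspanOn_one.1 hα
      obtain ⟨f, hf⟩ := mem_zspan_finset.1 hαspan
      have hd0 : a₁ 1 ≠ 0 := Cfsg.Agent.Lib.Helper80.char_one_ne_zero (hirrF a₁ ha₁)
      have hsum0 : ∑ a ∈ F, f a = 0 := by
        have h1 : ∑ a ∈ F, (f a : ℂ) * a₁ 1 = 0 := by
          rw [← hα1, hf, Finset.sum_apply]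
          refine Finset.sum_congr rfl (fun a ha => ?_)
          rw [zsmul_apply', hdeg a ha a₁ ha₁]
        rw [← Finset.sum_mul] at h1
        have h2 := (mul_eq_zero.mp h1).resolve_right hd0
        exact_mod_cast h2
      have hα' : α = ∑ a ∈ F, f a • (a - a₁) := by
        rw [hf]
        have : ∑ a ∈ F, f a • (a - a₁) = ∑ a ∈ F, f a • a - (∑ a ∈ F, f a) • a₁ := by
          rw [Finset.sum_smul, ← Finset.sum_sub_distrib]
          exact Finset.sum_congr rfl (fun a _ => smul_sub _ _ _)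
        rw [this, hsum0, zero_smul, sub_zero]
      have hτα : τ α = ∑ a ∈ F, f a • (E a - E a₁) := by
        rw [hα', lin_sum hτ' F (fun a => f a • (a - a₁))
          (fun a ha => (zspanOnSub _ _).smul_mem _ (hmem a ha a₁ ha₁))]
        refine Finset.sum_congr rfl (fun a ha => ?_)
        rw [hτ.2.1 _ (hmem a ha a₁ ha₁), hE a ha, hE a₁ ha₁, ← smul_sub]
        exact congrArg (fun z => f a • z) (hβ ⟨a, ha⟩ ⟨a₁, ha₁⟩)
      rw [hτα, hf, extMap_comb (irr_orth hirrF) (irr_norm hirrF)]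
      have : ∑ a ∈ F, f a • (E a - E a₁) = ∑ a ∈ F, f a • E a - (∑ a ∈ F, f a) • E a₁ := by
        rw [Finset.sum_smul, ← Finset.sum_sub_distrib]
        exact Finset.sum_congr rfl (fun a _ => smul_sub _ _ _)
      rw [this, hsum0, zero_smul, sub_zero]
  · -- at most one member
    push Not at h2
    have hzero : ∀ α ∈ zspanOn (↑F : Set (L → ℂ)) {1}ᶜ, α = 0 := by
      intro α hα
      obtain ⟨hαspan, hα1⟩ := mem_zspanOn_one.1 hα
      obtain ⟨f, hf⟩ := mem_zspan_finset.1 hαspan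
      rcases F.eq_empty_or_nonempty with hF | ⟨a₁, ha₁⟩
      · rw [hf, hF, Finset.sum_empty]
      · have hF1 : F = {a₁} :=
          Finset.eq_singleton_iff_unique_mem.2 ⟨ha₁, fun b hb => h2 b hb a₁ ha₁⟩
        rw [hF1, Finset.sum_singleton] at hf
        have h1 : (f a₁ : ℂ) * a₁ 1 = 0 := by
          rw [← zsmul_apply', ← hf, hα1]
        have h2' := (mul_eq_zero.mp h1).resolve_right
          (Cfsg.Agent.Lib.Helper80.char_one_ne_zero (hirrF a₁ ha₁))
        have h3 : f a₁ = 0 := by exact_mod_cast h2'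
        rw [hf, h3, zero_smul]
    have htriv : IsIrrCharacter G (fun _ => (1 : ℂ)) :=
      Cfsg.Agent.Lib.Helper80.isIrrCharacter_one
    refine ⟨fun _ => (fun _ => (1 : ℂ)), ?_, ?_, ?_⟩
    · intro a _
      exact isGen_of_irr htriv
    · intro a ha b hb
      rw [h2 a ha b hb, classInner_irr_self (hirrF b hb), classInner_irr_self htriv]
    · intro α hα
      rw [hzero α hα, lin_zero hτ', extMap_zero']

end Cfsg.Agent.Lib.Helper4.Feit
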