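import Mathlib
import Cfsg.Prelude.Def_OddOrderChar
import Cfsg.Prelude.Def_OddOrderLocal
import Cfsg.Agent.Lib.Helper4.Sib4
import Cfsg.Agent.Lib.Helper25.PF65
import Cfsg.Agent.Lib.Helper25.PF66
import Cfsg.Agent.Lib.Helper25.CohExt
import Cfsg.Agent.Lib.Helper25.FrobSys
import Cfsg.Agent.S1521

/-!
# Coherence of `S ∖ S(Z)` for a nilpotent kernel (Peterfalvi (6.6))
-/

set_option autoImplicit false

namespace Cfsg.Agent.Lib.Helper4.Sib

open Cfsg Cfsg.Agent.Lib.Helper26 Cfsg.Agent.Lib.Helper25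
open scoped ComplexConjugate

section dictionary

variable {L : Type*} [Group L] [Fintype L] (K : Subgroup L) [hK : K.Normal]

/-- If every member of `S ∖ S(Z)` is irreducible, then `S ∖ S(Z)` is the set of irreducible
characters of `L` not trivial on `Z`. -/
theorem diff_set_eq (Z : Subgroup L) [hZ : Z.Normal] (hZK : Z ≤ K)
    (hirr : ∀ χ ∈ inducedIrrAbove K ⊥ \ inducedIrrAbove K Z, IsIrrCharacter L χ) :
    inducedIrrAbove K ⊥ \ inducedIrrAbove K Z =
      {χ | IsIrrCharacter L χ ∧ ∃ z ∈ Z, χ z ≠ χ 1} := by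
  classical
  ext χ
  constructor
  · intro hχ
    refine ⟨hirr χ hχ, ?_⟩
    obtain ⟨θ, hθ, hnz, rfl⟩ := (mem_diff_above_iff K Z χ).mp hχ
    by_contra hcon
    push Not at hcon
    exact hnz (trivial_on_of_ind K θ
      (Cfsg.Agent.Lib.Helper80.isCharacter_of_isIrrCharacter hθ) Z hZK hcon)
  · rintro ⟨hχ, z, hz, hne⟩
    haveI : Fintype K := Fintype.ofFinite K
    haveI : Fintype (IrrCharacter K) := Fintype.ofFinite _
    have hres : IsCharacter K (fun k : K => χ k) :=
      Cfsg.Agent.Lib.Helper80.isCharacter_restrict K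
        (Cfsg.Agent.Lib.Helper80.isCharacter_of_isIrrCharacter hχ)
    obtain ⟨m, hm, hsum⟩ := Cfsg.Agent.Lib.Helper75.char_eq_sum_irr hres
    by_contra hcon
    have hzero : ∀ ψ : IrrCharacter K,
        (¬ ∀ a : K, (a : L) ∈ Z → (ψ : K → ℂ) a = (ψ : K → ℂ) 1) → m ψ = 0 := by
      intro ψ hψZ
      have hmem : indFun K (ψ : K → ℂ) ∈ inducedIrrAbove K ⊥ \ inducedIrrAbove K Z :=
        (mem_diff_above_iff K Z _).mpr ⟨ψ, ψ.2, hψZ, rfl⟩
      have h1 := Cfsg.Agent.Lib.Helper80.frobenius_reciprocity K (ψ : K → ℂ) χ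
        (Cfsg.Agent.Lib.Helper80.isClassFunction_of_isCharacter
          (Cfsg.Agent.Lib.Helper80.isCharacter_of_isIrrCharacter hχ))
      rw [Cfsg.Agent.Lib.Helper26.classInner_irr (hirr _ hmem) hχ,
        if_neg (fun h => hcon (by rw [← h]; exact hmem))] at h1
      have h2 := hm ψ
      rw [← Cfsg.Agent.Lib.Helper26.classInner_conj_symm, ← h1, map_zero] at h2
      exact_mod_cast h2.symm
    apply hne
    have h3 : χ ((⟨z, hZK hz⟩ : K) : L) = _ := congrFun hsum ⟨z, hZK hz⟩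
    have h4 : χ ((1 : K) : L) = _ := congrFun hsum 1
    rw [Subgroup.coe_one] at h4
    have h5 : χ z = χ ((⟨z, hZK hz⟩ : K) : L) := rfl
    rw [h5, h3, h4, Finset.sum_apply, Finset.sum_apply]
    refine Finset.sum_congr rfl (fun ψ _ => ?_)
    by_cases hψ : ∀ a : K, (a : L) ∈ Z → (ψ : K → ℂ) a = (ψ : K → ℂ) 1
    · rw [Pi.smul_apply, Pi.smul_apply, hψ ⟨z, hZK hz⟩ hz]
    · rw [hzero ψ hψ]
      simp

omit [Fintype L] hK in
/-- Some irreducible character of `K` is nontrivial on a nontrivial subgroup. -/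
theorem exists_irr_nontrivial_on [Finite L] (Z : Subgroup L) (hZK : Z ≤ K) (hZ1 : Z ≠ ⊥) :
    ∃ θ : K → ℂ, IsIrrCharacter K θ ∧ ¬ ∀ a : K, (a : L) ∈ Z → θ a = θ 1 := by
  classical
  haveI : Fintype K := Fintype.ofFinite K
  obtain ⟨z, hz1⟩ := (Subgroup.ne_bot_iff_exists_ne_one).mp hZ1
  by_contra hcon
  push Not at hcon
  have hzK1 : (⟨(z : L), hZK z.2⟩ : K) ∉ (⊥ : Subgroup K) := by
    intro h
    rw [Subgroup.mem_bot] at h
    apply hz1
    apply Subtype.ext
    have h' := congrArg Subtype.val h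
    simpa using h'
  have h1 := sum_irrKer (⊥ : Subgroup K) (⟨(z : L), hZK z.2⟩ : K)
  rw [if_neg hzK1] at h1
  have h2 := sum_irrKer (⊥ : Subgroup K) (1 : K)
  rw [if_pos (Subgroup.one_mem _), Subgroup.index_bot] at h2
  have h3 : ∀ a ∈ irrKer (⊥ : Subgroup K),
      a 1 * a (⟨(z : L), hZK z.2⟩ : K) = a 1 * a 1 := by
    intro a ha
    rw [mem_irrKer] at ha
    rw [hcon a ha.1 ⟨(z : L), hZK z.2⟩ z.2]
  rw [Finset.sum_congr rfl h3, h2] at h1
  exact (Nat.cast_ne_zero.mpr Nat.card_pos.ne') h1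

end dictionary

section conjugacy

/-- If every irreducible character not trivial on the normal subgroup `Z` vanishes at `x`, then
`x` is conjugate to `z * x` for every `z ∈ Z`. -/
theorem conj_of_vanish {L : Type*} [Group L] [Fintype L] (Z : Subgroup L) [hZ : Z.Normal]
    (x z : L) (hz : z ∈ Z)
    (hvan : ∀ χ : L → ℂ, IsIrrCharacter L χ → (¬ ∀ y ∈ Z, χ y = χ 1) → χ x = 0) :
    IsConj x (z * x) := by
  classical
  haveI : Fintype (IrrCharacter L) := Fintype.ofFinite _
  by_contra hnc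
  have h0 := Cfsg.Agent.Lib.Helper80.second_orthogonality_of_not_isConj hnc
  have hterm : ∀ χ : IrrCharacter L, (χ : L → ℂ) x * conj ((χ : L → ℂ) (z * x)) =
      ((Complex.normSq ((χ : L → ℂ) x) : ℝ) : ℂ) := by
    intro χ
    by_cases hχ : ∀ y ∈ Z, (χ : L → ℂ) y = (χ : L → ℂ) 1
    · obtain ⟨ψ, -, hψ⟩ := Cfsg.Agent.Lib.Helper80.exists_isIrrCharacter_deflate Z χ.2 hχ
      have h1 : (χ : L → ℂ) (z * x) = (χ : L → ℂ) x := by
        rw [← hψ, ← hψ]
        congr 1
        rw [QuotientGroup.mk_mul, (QuotientGroup.eq_one_iff z).mpr hz, one_mul]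
      rw [h1, Complex.mul_conj]
    · rw [hvan _ χ.2 hχ, zero_mul, map_zero, Complex.ofReal_zero]
  rw [Finset.sum_congr rfl (fun χ _ => hterm χ)] at h0
  have h1 : ∑ χ : IrrCharacter L, Complex.normSq ((χ : L → ℂ) x) = 0 := by
    exact_mod_cast h0
  have h2 := (Finset.sum_eq_zero_iff_of_nonneg (fun χ _ => Complex.normSq_nonneg _)).mp h1
    ⟨fun _ => 1, Cfsg.Agent.Lib.Helper80.isIrrCharacter_one⟩ (Finset.mem_univ _)
  simp at h2

theorem orderOf_conj_eq {L : Type*} [Group L] (c y : L) : orderOf (c * y * c⁻¹) = orderOf y := by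
  have := MulEquiv.orderOf_eq (MulAut.conj c) y
  rwa [MulAut.conj_apply] at this

/-- If `K` is a normal Hall subgroup and `z ∈ K` is conjugate to `z * y` for each `y ∉ K`
commuting with it, then the centralizer of `z` lies in `K`. -/
theorem cent_of_conj {L : Type*} [Group L] [Finite L] (K : Subgroup L) [hK : K.Normal]
    (hcop : (Nat.card K).Coprime K.index) (z : L) (hzK : z ∈ K) (hz1 : z ≠ 1)
    (hconj : ∀ y : L, y ∉ K → y * z = z * y → IsConj y (z * y)) :
    ∀ y : L, y * z = z * y → y ∈ K := by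
  have hoz : orderOf z ≠ 1 := fun h => hz1 (orderOf_eq_one_iff.mp h)
  obtain ⟨r, hr, hrz⟩ := Nat.exists_prime_and_dvd hoz
  have hrK : r ∣ Nat.card K := by
    have h1 : orderOf (⟨z, hzK⟩ : K) ∣ Nat.card K := orderOf_dvd_natCard _
    rw [Subgroup.orderOf_mk] at h1
    exact hrz.trans h1
  have hre : (Nat.card (L ⧸ K)).Coprime r := by
    rw [← Subgroup.index_eq_card]
    exact (Nat.Coprime.coprime_dvd_left hrK hcop).symm
  have key : ∀ n : ℕ, ∀ y : L, orderOf y = n → y * z = z * y → y ∈ K := by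
    intro n
    induction n using Nat.strong_induction_on with
    | _ n ih =>
      intro y hy hyz
      by_contra hyK
      have hc := hconj y hyK hyz
      obtain ⟨c, hc'⟩ := isConj_iff.mp hc
      have ho : orderOf (z * y) = orderOf y := by
        rw [← hc']
        exact orderOf_conj_eq c y
      have hcomm : Commute z y := hyz.symm
      have h1 : z ^ orderOf y = 1 := by
        have h2 : (z * y) ^ orderOf y = 1 := by
          rw [← ho]
          exact pow_orderOf_eq_one _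
        rw [hcomm.mul_pow, pow_orderOf_eq_one, mul_one] at h2
        exact h2
      have h3 : r ∣ orderOf y := hrz.trans (orderOf_dvd_of_pow_eq_one h1)
      have hn0 : 0 < orderOf y := orderOf_pos y
      have h4 : orderOf (y ^ r) = orderOf y / r := orderOf_pow_of_dvd hr.ne_zero h3
      have h5 : orderOf (y ^ r) < n := by
        rw [h4, hy]
        exact Nat.div_lt_self (hy ▸ hn0) hr.one_lt
      have h6 : y ^ r ∈ K := ih _ h5 (y ^ r) rfl (hcomm.symm.pow_left r).eq
      have h7 : ((y : L ⧸ K)) ^ r = 1 := by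
        rw [← QuotientGroup.mk_pow]
        exact (QuotientGroup.eq_one_iff _).mpr h6
      have h8 : (powCoprime hre) (y : L ⧸ K) = (powCoprime hre) 1 := by
        rw [powCoprime_apply, powCoprime_apply, h7, one_pow]
      have h9 := (powCoprime hre).injective h8
      exact hyK ((QuotientGroup.eq_one_iff y).mp h9)
  intro y hy
  exact key _ y rfl hy

end conjugacy

section main

variable {L : Type*} [Group L] [Fintype L] {G : Type*} [Group G] [Fintype G]
  (K : Subgroup L) [hK : K.Normal]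

/-- Peterfalvi (6.6) for a nilpotent kernel. -/
theorem diff_coherent_of_nilpotent (hsolv : Group.IsSolvable K) (τ : (L → ℂ) → (G → ℂ))
    (R : (L → ℂ) → Finset (G → ℂ)) (hS : IsCoherenceSystem (inducedIrrAbove K ⊥) τ R)
    (hodd : Odd (Nat.card L)) (hnil : Group.IsNilpotent K) (hH₁K : ⁅K, K⁆ < K) (hKL : K < ⊤)
    (hfrob : ∀ k ∈ K, k ∉ ⁅K, K⁆ → ∀ x : L, x * k * x⁻¹ * k⁻¹ ∈ ⁅K, K⁆ → x ∈ K)
    (Z : Subgroup L) [hZ : Z.Normal] (hZ1 : Z ≠ ⊥) (hZK : Z ≤ K)
    (hZc : ∀ z ∈ Z, ∀ k ∈ K, z * k = k * z)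
    (hirr : ∀ χ ∈ inducedIrrAbove K ⊥ \ inducedIrrAbove K Z, IsIrrCharacter L χ) :
    inducedIrrAbove K ⊥ \ inducedIrrAbove K Z =
        {χ | IsIrrCharacter L χ ∧ ∃ z ∈ Z, χ z ≠ χ 1} ∧
      IsCoherent (inducedIrrAbove K ⊥ \ inducedIrrAbove K Z) {1}ᶜ τ := by
  classical
  have hset := diff_set_eq K Z hZK hirr
  refine ⟨hset, ?_⟩
  have hne : (inducedIrrAbove K ⊥ \ inducedIrrAbove K Z).Nonempty := by
    obtain ⟨θ, hθ, hθZ⟩ := exists_irr_nontrivial_on K Z hZK hZ1
    exact ⟨indFun K θ, (mem_diff_above_iff K Z _).mpr ⟨θ, hθ, hθZ, rfl⟩⟩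
  have hnz : ∃ α ∈ zspanOn (inducedIrrAbove K ⊥ \ inducedIrrAbove K Z) {1}ᶜ, α ≠ 0 :=
    exists_nonzero_of_mem hS Set.diff_subset (fun χ hχ => conj_mem_diff_above K Z hχ) hne
  haveI := hnil
  have hnilq : Group.IsNilpotent (↥K ⧸ (⊥ : Subgroup L).subgroupOf K) := inferInstance
  have hH₁K' : ⁅K, K⁆ ⊔ ⊥ < K := by rw [sup_bot_eq]; exact hH₁K
  have hfrob' : ∀ k ∈ K, k ∉ ⁅K, K⁆ ⊔ ⊥ → ∀ x : L, x * k * x⁻¹ * k⁻¹ ∈ ⁅K, K⁆ ⊔ ⊥ → x ∈ K := by
    rw [sup_bot_eq]; exact hfrob
  have hall : (¬ ∃ p m : ℕ, p.Prime ∧ Nat.card K = p ^ m) ∨ ⁅K, K⁆ = ⊥ →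
      IsCoherent (inducedIrrAbove K ⊥ \ inducedIrrAbove K Z) {1}ᶜ τ := by
    intro hgood
    have hcoh : IsCoherent (inducedIrrAbove K ⊥) {1}ᶜ τ := by
      refine Cfsg.Agent.S1521.result K hsolv τ R hS hodd ⊥ bot_le hnilq (⁅K, K⁆ ⊔ ⊥) rfl hH₁K'
        hKL hfrob' ?_
      rcases hgood with h | h
      · refine Or.inr (Or.inr (Or.inl ?_))
        rw [Subgroup.relIndex_bot_left]
        exact h
      · exact Or.inr (Or.inr (Or.inr (Or.inl (by rw [h]))))
    exact coherent_of_subset Set.diff_subset hcoh hnz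
  by_cases hpp : ∃ p m : ℕ, p.Prime ∧ Nat.card K = p ^ m
  · by_cases hab : ⁅K, K⁆ = ⊥
    · exact hall (Or.inr hab)
    · obtain ⟨p, m, hp, hKp⟩ := hpp
      have hm0 : m ≠ 0 := by
        rintro rfl
        rw [pow_zero] at hKp
        apply hZ1
        rw [eq_bot_iff]
        exact hZK.trans (le_of_eq (Subgroup.card_eq_one.mp hKp))
      have hp3 : 3 ≤ p := by
        have hpK : p ∣ Nat.card K := by rw [hKp]; exact dvd_pow_self p hm0
        have hpL : p ∣ Nat.card L := hpK.trans (Subgroup.card_subgroup_dvd_card K)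
        have h2 : p ≠ 2 := by
          rintro rfl
          exact (Nat.not_even_iff_odd.mpr hodd) (even_iff_two_dvd.mpr hpL)
        have := hp.two_le
        omega
      have hsurj := QuotientGroup.mk'_surjective ⁅K, K⁆
      haveI hcomm_n : (⁅K, K⁆).Normal := Subgroup.commutator_normal K K
      have hidx : K.index ∣ (⁅K, K⁆).relIndex K - 1 := by
        haveI hA : (K.map (QuotientGroup.mk' ⁅K, K⁆)).Normal := Subgroup.Normal.map hK _ hsurj
        have h := frob_count (K.map (QuotientGroup.mk' ⁅K, K⁆))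
          (K.map (QuotientGroup.mk' ⁅K, K⁆)) (centralizer_map_mk K ⁅K, K⁆ le_rfl hfrob)
        rwa [card_map_mk K ⁅K, K⁆ hH₁K.le, Subgroup.index_map_eq K hsurj
          (by rw [QuotientGroup.ker_mk']; exact hH₁K.le)] at h
      have hcop : (Nat.card K).Coprime K.index := by
        have hdvd : (⁅K, K⁆).relIndex K ∣ p ^ m := hKp ▸ Subgroup.relIndex_dvd_card _ _
        obtain ⟨j, -, hj⟩ := (Nat.dvd_prime_pow hp).mp hdvd
        have hj0 : j ≠ 0 := by
          rintro rfl
          rw [pow_zero] at hj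
          exact not_le_of_gt hH₁K (Subgroup.relIndex_eq_one.mp hj)
        rw [hKp]
        apply Nat.Coprime.pow_left
        rw [Nat.Prime.coprime_iff_not_dvd hp]
        intro hpe
        have h1 : p ∣ p ^ j - 1 := hj ▸ (hpe.trans hidx)
        have h2 : p ∣ p ^ j := dvd_pow_self p hj0
        have h3 : 1 ≤ p ^ j := Nat.one_le_pow _ _ hp.pos
        have h4 : p ∣ 1 := by
          have h5 := Nat.dvd_sub h2 h1
          rwa [Nat.sub_sub_self h3] at h5
        exact hp.one_lt.ne' (Nat.dvd_one.mp h4)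
      have hcent : ∀ z ∈ Z, z ≠ 1 → Subgroup.centralizer ({z} : Set L) = K := by
        intro z hz hz1
        ext x
        rw [Subgroup.mem_centralizer_iff]
        constructor
        · intro h
          have hxz : x * z = z * x := (h z rfl).symm
          apply cent_of_conj K hcop z (hZK hz) hz1 ?_ x hxz
          intro y hyK _
          apply conj_of_vanish Z y z hz
          intro χ hχ hχZ
          have hmem : χ ∈ inducedIrrAbove K ⊥ \ inducedIrrAbove K Z := by
            rw [hset]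
            push Not at hχZ
            obtain ⟨w, hw, hne⟩ := hχZ
            exact ⟨hχ, w, hw, hne⟩
          obtain ⟨θ, -, -, rfl⟩ := (mem_diff_above_iff K Z χ).mp hmem
          exact indFun_apply_of_notMem K θ hyK
        · intro hx y hy
          rw [Set.mem_singleton_iff.mp hy]
          exact hZc z hz x hx
      have he : K.index ∣ Nat.card Z - 1 := frob_count K Z hcent
      exact coherent_diff_pgroup K hS Z hZK hZc hirr hp hp3 hKp hZ1 he
  · exact hall (Or.inl hpp)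

end main

end Cfsg.Agent.Lib.Helper4.Sib
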